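import Cfsg.Agent.H77.SgDefs2

/-! Project SG (S5636): the standing hypotheses hold for an overgroup of the torus normaliser. -/

set_option autoImplicit false

namespace Cfsg.Agent.H72.SgCt

open Cfsg Module Cfsg.Agent.H77.Sg Finset

universe u v

theorem two_pow_big (n : ℕ) (h : 7 ≤ n) : n ^ 2 + 1 < 2 ^ (n - 1) := by
  induction n, h using Nat.le_induction with
  | base => norm_num
  | succ k hk ih =>
    obtain ⟨j, rfl⟩ : ∃ j, k = j + 1 := ⟨k - 1, by omega⟩
    simp only [Nat.add_sub_cancel] at ih ⊢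
    rw [pow_succ 2]
    nlinarith

theorem num {n m t R : ℕ} (h7 : n = 7 ∨ 11 ≤ n) (hm : 1 ≤ m) (hN : (m + 1) ^ (n - 1) ≤ R * t)
    (hR : R = 1 ∨ (R = n ∧ n ∣ m)) (hs : ¬ (n = 7 ∧ m = 7 ∧ R = 7)) :
    (R * n) ^ 2 + 1 < t ∧ 2 * R ^ 6 + 1 < t ∧ 2 * R ^ 4 * m ^ 2 + 2 ≤ t := by
  have h6 : (m + 1) ^ 6 ≤ R * t := (Nat.pow_le_pow_right (by omega) (by omega)).trans hN
  rcases hR with rfl | ⟨rfl, hd⟩
  · rw [one_mul] at hN h6
    have h1 : 2 ^ (n - 1) ≤ t := (Nat.pow_le_pow_left (by omega) _).trans hN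
    have h2 := two_pow_big n (by omega)
    have h3 : 16 * (m + 1) ^ 2 ≤ (m + 1) ^ 6 := by
      have : 2 ^ 4 ≤ (m + 1) ^ 4 := Nat.pow_le_pow_left (by omega) _
      calc _ ≤ (m + 1) ^ 4 * (m + 1) ^ 2 := Nat.mul_le_mul_right _ this
        _ = _ := by ring
    refine ⟨by rw [one_mul]; omega, by nlinarith, by nlinarith⟩
  · have hle := Nat.le_of_dvd hm hd
    rcases h7 with rfl | h11
    · have h14 : 14 ≤ m := by omega
      have h3 : 50625 * (m + 1) ^ 2 ≤ (m + 1) ^ 6 := by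
        have : 15 ^ 4 ≤ (m + 1) ^ 4 := Nat.pow_le_pow_left (by omega) _
        calc _ ≤ (m + 1) ^ 4 * (m + 1) ^ 2 := Nat.mul_le_mul_right _ this
          _ = _ := by ring
      have h4 : 15 ^ 2 ≤ (m + 1) ^ 2 := Nat.pow_le_pow_left (by omega) _
      refine ⟨by omega, by omega, by nlinarith⟩
    · have h10 : (m + 1) ^ 10 ≤ R * t := (Nat.pow_le_pow_right (by omega) (by omega)).trans hN
      have h1 : 4 * (m + 1) ^ 6 ≤ t := by
        refine Nat.le_of_mul_le_mul_left (le_trans ?_ h10) (by omega : 0 < R)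
        have : 2 ^ 3 ≤ (m + 1) ^ 3 := Nat.pow_le_pow_left (by omega) _
        calc R * (4 * (m + 1) ^ 6) ≤ (m + 1) * ((m + 1) ^ 3 * (m + 1) ^ 6) :=
              Nat.mul_le_mul (by omega) (Nat.mul_le_mul_right _ (by omega))
          _ = _ := by ring
      have h2 : 1 ≤ (m + 1) ^ 6 := Nat.one_le_pow _ _ (by omega)
      have h3 : R ^ 6 ≤ (m + 1) ^ 6 := Nat.pow_le_pow_left (by omega) _
      have h4 : (R * R) ^ 2 ≤ R ^ 6 := by
        rw [← pow_two, ← pow_mul]; exact Nat.pow_le_pow_right (by omega) (by omega)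
      have h5 : R ^ 4 * m ^ 2 ≤ (m + 1) ^ 6 :=
        calc _ ≤ (m + 1) ^ 4 * (m + 1) ^ 2 := Nat.mul_le_mul (Nat.pow_le_pow_left (by omega) _)
              (Nat.pow_le_pow_left (by omega) _)
          _ = _ := by ring
      rw [mul_assoc]
      exact ⟨by omega, by omega, by omega⟩

theorem arith {n m : ℕ} (hp : n.Prime) (h7 : 7 ≤ n) : ∃ t R,
    R * t = ∑ i ∈ range n, (m + 1) ^ i ∧ ((R = 1 ∧ n.Coprime m) ∨ (R = n ∧ n ∣ m)) ∧
      t.Coprime m ∧ t.Coprime n := by
  have hg := geom_sum_mul_add m n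
  have hmod : (∑ i ∈ range n, (m + 1) ^ i) ≡ n [MOD m] := by
    have : ∀ k, (∑ i ∈ range k, (m + 1) ^ i) ≡ k [MOD m] := by
      intro k
      induction k with
      | zero => rfl
      | succ k ih =>
        rw [sum_range_succ]
        refine ih.add ?_
        simpa using (Nat.ModEq.pow k (Nat.add_modEq_left (n := m) (a := 1)))
    exact this n
  have cop : ∀ t R, R * t = ∑ i ∈ range n, (m + 1) ^ i → t.Coprime n → t.Coprime m := by
    intro t R h c
    refine Nat.coprime_of_dvd fun l hl h1 h2 => ?_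
    have h3 : l ∣ n := ((hmod.of_dvd h2).dvd_iff dvd_rfl).1 (h ▸ h1.mul_left R)
    exact hl.one_lt.ne' (Nat.dvd_one.1 (c.gcd_eq_one ▸ Nat.dvd_gcd h1 h3))
  by_cases hd : n ∣ m
  · obtain ⟨b, rfl⟩ := hd
    obtain ⟨c, hc⟩ := odd_sq_dvd_geom_sum₂_sub (R := ℤ) (a := 1) (b := b)
      (hp.odd_of_ne_two (by omega))
    simp only [one_pow, mul_one] at hc
    have h1 : ((∑ i ∈ range n, (n * b + 1) ^ i : ℕ) : ℤ) = n * (1 + n * c) := by
      push_cast
      simp only [add_comm _ (1 : ℤ)]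
      linear_combination hc
    obtain ⟨t, ht⟩ : n ∣ ∑ i ∈ range n, (n * b + 1) ^ i := by
      rw [← Int.natCast_dvd_natCast, h1]; exact dvd_mul_right _ _
    have h2 : (t : ℤ) = 1 + n * c := by
      rw [ht] at h1
      push_cast at h1
      exact mul_left_cancel₀ (by exact_mod_cast hp.ne_zero) h1
    have h3 : t.Coprime n := by
      rw [← Nat.isCoprime_iff_coprime, h2]
      exact ⟨1, -c, by ring⟩
    exact ⟨t, n, ht.symm, Or.inr ⟨rfl, dvd_mul_right _ _⟩, cop t n ht.symm h3, h3⟩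
  · have h3 : (∑ i ∈ range n, (m + 1) ^ i).Coprime n := by
      refine ((Nat.Prime.coprime_iff_not_dvd hp).2 fun h => hd ?_).symm
      haveI := Fact.mk hp
      have h1 := congrArg (Nat.cast : ℕ → ZMod n) hg
      rw [Nat.cast_add, Nat.cast_mul, (ZMod.natCast_eq_zero_iff _ _).2 h, Nat.cast_pow,
        ZMod.pow_card] at h1
      rw [← ZMod.natCast_eq_zero_iff]
      push_cast at h1
      linear_combination -h1
    exact ⟨_, 1, one_mul _, Or.inl ⟨rfl, (Nat.Prime.coprime_iff_not_dvd hp).2 hd⟩,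
      cop _ 1 (one_mul _) h3, h3⟩

section field

variable {F : Type u} {K : Type v} [Field F] [Field K] [Algebra F K] [Finite F] [Finite K]

omit [Finite F] [Finite K] in
theorem det_mulH (a : Kˣ) : LinearMap.det (mulH F K a : K →ₗ[F] K) = Algebra.norm F (a : K) := by
  rw [Algebra.norm_apply]
  congr 1

theorem mem_of_pow {a : K} (h : a ^ Nat.card F = a) : ∃ c : F, algebraMap F K c = a := by
  haveI := Fintype.ofFinite F
  refine (IsGalois.mem_range_algebraMap_iff_fixed a).2 fun f => ?_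
  obtain ⟨⟨i, hi⟩, rfl⟩ := (FiniteField.bijective_frobeniusAlgEquivOfAlgebraic_pow F K).2 f
  rw [Nat.card_eq_fintype_card] at h
  rw [AlgEquiv.coe_pow]
  exact Function.iterate_fixed h i

theorem frob (h : Odd (finrank F K)) : ∃ φ : K ≃ₗ[F] K, LinearMap.det (φ : K →ₗ[F] K) = 1 ∧ Nm φ ∧
    ∀ x, φ x = x ^ Nat.card F := by
  haveI := Fintype.ofFinite F
  refine ⟨(FiniteField.frobeniusAlgEquivOfAlgebraic F K).toLinearEquiv, ?_,
    fun a => ⟨_, fun x => map_mul (FiniteField.frobeniusAlgEquivOfAlgebraic F K) a x⟩,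
    fun x => by rw [Nat.card_eq_fintype_card]; rfl⟩
  change LinearMap.det (FiniteField.frobeniusAlgHom F K).toLinearMap = 1
  have h1 := LinearMap.minpoly_dvd_charpoly (FiniteField.frobeniusAlgHom F K).toLinearMap
  have h2 := Polynomial.eq_of_monic_of_dvd_of_natDegree_le
    (minpoly.monic (LinearMap.isIntegral _)) (LinearMap.charpoly_monic _) h1 (by
      rw [LinearMap.charpoly_natDegree, FiniteField.minpoly_frobeniusAlgHom, ← Polynomial.C_1,
        Polynomial.natDegree_X_pow_sub_C])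
  rw [LinearMap.det_eq_sign_charpoly_coeff, h2, FiniteField.minpoly_frobeniusAlgHom, h.neg_one_pow]
  simp [Polynomial.coeff_X_pow, h.pos.ne]

end field

theorem ct : Ct0.{u, v} := by
  intro F K _ _ _ _ _ M X hp h7 hM hN hX
  obtain ⟨m, hm⟩ : ∃ m, Nat.card F = m + 1 := ⟨Nat.card F - 1, by
    have := Nat.card_pos (α := F); omega⟩
  have m1 : 1 ≤ m := by
    have := Finite.one_lt_card (α := F); omega
  obtain ⟨t, R, hN', hR, c1, c2⟩ := arith (m := m) hp h7
  have nrm : ∀ a : K, algebraMap F K (Algebra.norm F a) = a ^ (R * t) := fun a => by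
    rw [FiniteField.algebraMap_norm_eq_pow_sum, hm, hN']
  have hg := geom_sum_mul_add m (finrank F K)
  have ker : ∀ a : Kˣ, Algebra.norm F (a : K) = 1 →
      ∃ (c : F) (s : Kˣ), c ^ finrank F K = 1 ∧ s ^ t = 1 ∧ (a : K) = c • (s : K) := by
    intro a ha
    have h1 : a ^ (R * t) = 1 := Units.ext (by rw [Units.val_pow_eq_pow_val, ← nrm, ha, map_one]; rfl)
    rcases hR with ⟨rfl, -⟩ | ⟨rfl, b, hb⟩
    · exact ⟨1, a, one_pow _, by simpa using h1, (one_smul _ _).symm⟩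
    obtain ⟨x, y, hxy⟩ := Nat.isCoprime_iff_coprime.2 c2
    have h2 : (a ^ (x * t)) ^ finrank F K = 1 := by
      rw [← zpow_natCast, ← zpow_mul, mul_assoc, mul_comm x, zpow_mul, ← Nat.cast_mul, mul_comm t,
        zpow_natCast, h1, one_zpow]
    have h3 : (a ^ (y * finrank F K)) ^ t = 1 := by
      rw [← zpow_natCast, ← zpow_mul, mul_assoc, mul_comm y, zpow_mul, ← Nat.cast_mul,
        zpow_natCast, h1, one_zpow]
    have h4 : (((a ^ (x * t) : Kˣ) : K)) ^ finrank F K = 1 := by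
      rw [← Units.val_pow_eq_pow_val, h2, Units.val_one]
    obtain ⟨c, hc⟩ := mem_of_pow (F := F) (a := ((a ^ (x * t) : Kˣ) : K)) (by
      rw [hm, pow_succ, hb, pow_mul, h4, one_pow, one_mul])
    refine ⟨c, _, (algebraMap F K).injective (by rw [map_pow, hc, h4, map_one]), h3, ?_⟩
    rw [Algebra.smul_def, hc, ← Units.val_mul, ← zpow_add, hxy, zpow_one]
  have h11 : finrank F K = 7 ∨ 11 ≤ finrank F K := by
    by_contra h
    have : finrank F K = 8 ∨ finrank F K = 9 ∨ finrank F K = 10 := by omega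
    rcases this with e | e | e <;> rw [e] at hp <;> norm_num at hp
  have hle : (m + 1) ^ (finrank F K - 1) ≤ R * t := by
    rw [hN']
    exact single_le_sum (f := fun i => (m + 1) ^ i) (fun _ _ => Nat.zero_le _)
      (mem_range.2 (by omega))
  have main : (R * finrank F K) ^ 2 + 1 < t ∧
      (2 * R ^ 6 + 1 < t ∨ (finrank F K = 7 ∧ m + 1 = 8 ∧ t = 42799 ∧ R = 7)) ∧
      2 * (R * m) ^ 3 < m * (t - 1) ∧ (Odd (m + 1) → 2 * (R * m) ^ 4 * t < (m * (t - 1)) ^ 2) := by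
    by_cases hs : finrank F K = 7 ∧ m = 7 ∧ R = 7
    · obtain ⟨e1, rfl, rfl⟩ := hs
      rw [e1] at hN' ⊢
      norm_num [sum_range_succ] at hN'
      obtain rfl : t = 42799 := by omega
      norm_num
    · obtain ⟨a1, a2, a3⟩ := num h11 m1 hle (hR.imp_left And.left) hs
      obtain ⟨s, rfl⟩ : ∃ s, t = s + 2 := ⟨t - 2, by omega⟩
      have R1 : 1 ≤ R := by rcases hR with ⟨e, -⟩ | ⟨e, -⟩ <;> omega
      have a4 : 2 * R ^ 4 * m ^ 2 ≤ s := by omega
      have a5 : R ^ 3 ≤ R ^ 4 := Nat.pow_le_pow_right R1 (by norm_num)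
      refine ⟨a1, Or.inl a2, ?_, fun _ => ?_⟩
      · calc 2 * (R * m) ^ 3 = m * (2 * R ^ 3 * m ^ 2) := by ring
          _ ≤ m * (2 * R ^ 4 * m ^ 2) := by gcongr
          _ < _ := Nat.mul_lt_mul_of_pos_left (by omega) (by omega)
      · calc 2 * (R * m) ^ 4 * (s + 2) = m ^ 2 * (2 * R ^ 4 * m ^ 2 * (s + 2)) := by ring
          _ ≤ m ^ 2 * (s * (s + 2)) := by gcongr
          _ < m ^ 2 * (s + 1) ^ 2 := Nat.mul_lt_mul_of_pos_left (by nlinarith) (by positivity)
          _ = _ := by rw [mul_pow]; rfl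
  refine ⟨t, R, ⟨rfl, rfl, hp, h7, ?_, ?_, ?_, c2, main.1, fun a => ⟨fun h => ?_, ?_⟩, ker, ?_⟩, ?_⟩
  · rw [Module.natCard_eq_pow_finrank (K := F), hm, ← hg, ← hN', Nat.add_sub_cancel]
    ring
  · rwa [hm, Nat.add_sub_cancel]
  · rwa [hm, Nat.add_sub_cancel]
  · obtain ⟨g, hg, c, c0, e⟩ := (hX _).1 h
    have c0' : algebraMap F K c ≠ 0 := by simpa using c0
    have e' : g = mulH F K ((Units.mk0 _ c0')⁻¹ * a) := LinearEquiv.ext fun x => by
      have := e x
      rw [mulH_apply, Algebra.smul_def] at this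
      rw [mulH_apply, Units.val_mul, mul_assoc, this, Units.val_inv_eq_inv_val, Units.val_mk0,
        inv_mul_cancel_left₀ c0']
    obtain ⟨d, s, -, hs, e2⟩ := ker _ (by rw [← det_mulH, ← e', hM g hg])
    refine ⟨c * d, s, hs, ?_⟩
    rw [mul_smul, ← e2, Algebra.smul_def]
    simp [c0']
  · rintro ⟨c, s, hs, e⟩
    refine (hX _).2 ⟨mulH F K s, hN _ ?_ fun b => ⟨b, fun x => by simp [mul_left_comm]⟩, c,
      fun c0 => a.ne_zero (by rw [e, c0, zero_smul]), fun x => by simp [e]⟩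
    rw [det_mulH]
    apply (algebraMap F K).injective
    rw [nrm, mul_comm, pow_mul, ← Units.val_pow_eq_pow_val, hs]
    simp
  · obtain ⟨φ, h1, h2, h3⟩ := frob (F := F) (K := K) (hp.odd_of_ne_two (by omega))
    exact ⟨φ, (hX _).2 ⟨φ, hN φ h1 h2, 1, one_ne_zero, fun x => (one_smul _ _).symm⟩, h3⟩
  · rw [hm, Nat.add_sub_cancel]
    exact main.2

end Cfsg.Agent.H72.SgCt
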