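import Cfsg.Agent.H25.UGDefs
import Cfsg.Agent.H85.ModBasic

/-! Project UG: coordinates for a `p`-group acting transitively on `v + W`. -/

set_option autoImplicit false

namespace Cfsg.Agent.H72.UgTv0

open Cfsg Module Cfsg.Agent.H31 Cfsg.Agent.H25.UG

universe u

variable {E V : Type u} [Field E] [AddCommGroup V] [Module E V]

theorem key [Fintype E] [Finite V] {S : Subgroup (V ≃ₗ[E] V)} (hS : IsPGroup (ringChar E) S)
    {N₀ N : AddSubgroup V} (h0 : ∀ g ∈ S, ∀ w ∈ N₀, g w ∈ N₀) (h1 : ∀ g ∈ S, ∀ w ∈ N, g w ∈ N)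
    (hlt : ¬ N ≤ N₀) : ∃ w ∈ N, w ∉ N₀ ∧ ∀ g ∈ S, g w - w ∈ N₀ := by
  have : Fact (ringChar E).Prime := ⟨CharP.char_is_prime E _⟩
  exact H85.exists_fix_mod (H := V ≃ₗ[E] V) (fun w => by
    rw [← Nat.cast_smul_eq_nsmul E, ringChar.Nat.cast_ringChar, zero_smul]) hS
    (H85.le_nrm_iff.2 h0) (H85.le_nrm_iff.2 h1) hlt

/-- the translations induced by the elements that are trivial on `W` -/
def trA (S : Subgroup (V ≃ₗ[E] V)) (W : Submodule E V) (v : V) : AddSubgroup V where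
  carrier := {a | a ∈ W ∧ ∃ n ∈ S, (∀ w ∈ W, n w = w) ∧ n v = v + a}
  zero_mem' := ⟨W.zero_mem, 1, S.one_mem, fun _ _ => rfl, (add_zero v).symm⟩
  add_mem' := by
    rintro a b ⟨ha, n, hn, h1, h2⟩ ⟨hb, m, hm, h3, h4⟩
    refine ⟨W.add_mem ha hb, n * m, S.mul_mem hn hm, fun w hw => ?_, ?_⟩
    · rw [LinearEquiv.mul_apply, h3 w hw, h1 w hw]
    · rw [LinearEquiv.mul_apply, h4, map_add, h2, h1 b hb, add_assoc]
  neg_mem' := by
    rintro a ⟨ha, n, hn, h1, h2⟩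
    refine ⟨W.neg_mem ha, n⁻¹, S.inv_mem hn, fun w hw => ?_, ?_⟩
    · exact n.symm_apply_eq.2 (h1 w hw).symm
    · exact n.symm_apply_eq.2 (by rw [map_add, h2, h1 _ (W.neg_mem ha), add_neg_cancel_right])

theorem tv0 : Tv0Stmt.{u} := by
  intro E V _ _ _ _ _ σ B q S W v _ _ h
  have hA : ∀ g ∈ S, ∀ a ∈ trA S W v, g a ∈ trA S W v := by
    rintro g hg a ⟨ha, n, hn, h1, h2⟩
    refine ⟨h.inv g hg a ha, g * n * g⁻¹, S.mul_mem (S.mul_mem hg hn) (S.inv_mem hg),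
      fun w hw => ?_, ?_⟩
    · rw [LinearEquiv.mul_apply, LinearEquiv.mul_apply, h1 _ (h.inv _ (S.inv_mem hg) w hw)]
      exact g.apply_symm_apply w
    · have e : n (g⁻¹ v) = g⁻¹ v + a := by
        rw [← sub_add_cancel (g⁻¹ v) v, map_add, h1 _ (h.mv _ (S.inv_mem hg)), h2, add_assoc]
      rw [LinearEquiv.mul_apply, LinearEquiv.mul_apply, e, map_add]
      exact congrArg (· + g a) (g.apply_symm_apply v)
  have big : ∀ s : Finset V, s.card ≤ 2 →
      ¬ W.toAddSubgroup ≤ (Submodule.span E (s : Set V)).toAddSubgroup := fun s hs c => by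
    have := (Submodule.finrank_mono (s := W) (t := Submodule.span E (s : Set V)) c).trans
      (finrank_span_finset_le_card s)
    rw [h.rk] at this
    omega
  have b0 : ∀ g ∈ S, ∀ w ∈ (⊥ : AddSubgroup V), g w ∈ (⊥ : AddSubgroup V) := fun g _ w hw => by
    rw [AddSubgroup.mem_bot.1 hw, map_zero]
    exact zero_mem _
  obtain ⟨e₁, m1, n1, f1, hA1⟩ : ∃ e ∈ W, e ≠ 0 ∧ (∀ g ∈ S, g e = e) ∧
      (¬ trA S W v ≤ ⊥ → e ∈ trA S W v) := by
    by_cases c : trA S W v ≤ ⊥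
    · obtain ⟨e, a, b, d⟩ := key h.pg (N := W.toAddSubgroup) b0 h.inv fun c => big ∅ (by simp)
        (c.trans bot_le)
      exact ⟨e, a, mt AddSubgroup.mem_bot.2 b, fun g hg => sub_eq_zero.1 (d g hg),
        fun n => absurd c n⟩
    · obtain ⟨e, a, b, d⟩ := key h.pg b0 hA c
      exact ⟨e, a.1, mt AddSubgroup.mem_bot.2 b, fun g hg => sub_eq_zero.1 (d g hg), fun _ => a⟩
  classical
  obtain ⟨e₂, m2, n2, f2⟩ := key h.pg (N₀ := (Submodule.span E {e₁}).toAddSubgroup)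
    (N := W.toAddSubgroup) (fun g hg w hw => by
      obtain ⟨c, rfl⟩ := Submodule.mem_span_singleton.1 hw
      rw [map_smul, f1 g hg]
      exact hw) h.inv (by simpa using big {e₁} (by simp))
  choose x hx using fun g : S => Submodule.mem_span_singleton.1 (f2 g g.2)
  have g2 : ∀ g : S, g.1 e₂ = e₂ + x g • e₁ := fun g => by rw [hx, add_sub_cancel]
  obtain ⟨e₃, m3, n3, f3⟩ := key h.pg (N₀ := (Submodule.span E {e₂, e₁}).toAddSubgroup)
    (N := W.toAddSubgroup) (fun g hg w hw => by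
      obtain ⟨c, d, rfl⟩ := Submodule.mem_span_pair.1 hw
      refine Submodule.mem_span_pair.2 ⟨c, c * x ⟨g, hg⟩ + d, ?_⟩
      rw [map_add, map_smul, map_smul, f1 g hg, g2 ⟨g, hg⟩]
      module) h.inv (by simpa using big {e₂, e₁} Finset.card_le_two)
  choose y z hy using fun g : S => Submodule.mem_span_pair.1 (f3 g g.2)
  have g3 : ∀ g : S, g.1 e₃ = e₃ + y g • e₂ + z g • e₁ := fun g => by
    rw [add_assoc, hy, add_sub_cancel]
  have uq : ∀ a b c : E, a • e₁ + b • e₂ + c • e₃ = 0 → a = 0 ∧ b = 0 ∧ c = 0 := fun a b c e => by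
    have hc : c = 0 := by_contra fun hc => n3 (Submodule.mem_span_pair.2 ⟨-c⁻¹ * b, -c⁻¹ * a, by
      have : e₃ = c⁻¹ • (c • e₃) := by rw [smul_smul, inv_mul_cancel₀ hc, one_smul]
      rw [this, eq_neg_of_add_eq_zero_right e]
      module⟩)
    rw [hc, zero_smul, add_zero] at e
    have hb : b = 0 := by_contra fun hb => n2 (Submodule.mem_span_singleton.2 ⟨-b⁻¹ * a, by
      have : e₂ = b⁻¹ • (b • e₂) := by rw [smul_smul, inv_mul_cancel₀ hb, one_smul]
      rw [this, eq_neg_of_add_eq_zero_right e]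
      module⟩)
    rw [hb, zero_smul, add_zero] at e
    exact ⟨(smul_eq_zero.1 e).resolve_right n1, hb, hc⟩
  have uq' : ∀ a b c a' b' c' : E, v + a • e₁ + b • e₂ + c • e₃ =
      v + (a' • e₁ + b' • e₂ + c' • e₃) → a = a' ∧ b = b' ∧ c = c' := fun a b c a' b' c' e => by
    simpa only [sub_eq_zero] using uq (a - a') (b - b') (c - c') (by
      rw [← sub_eq_zero.2 e]
      module)
  have li : LinearIndependent E ![e₁, e₂, e₃] := Fintype.linearIndependent_iff.2 fun c e i => by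
    rw [Fin.sum_univ_three] at e
    obtain ⟨h0, h1, h2⟩ := uq _ _ _ e
    fin_cases i
    exacts [h0, h1, h2]
  have le : Submodule.span E {e₁, e₂, e₃} ≤ W := Submodule.span_le.2 (by
    rintro _ (rfl | rfl | rfl)
    exacts [m1, m2, m3])
  have sp : Submodule.span E {e₁, e₂, e₃} = W := by
    refine Submodule.eq_of_le_of_finrank_eq le ?_
    have := finrank_span_eq_card li
    rw [Matrix.range_cons, Matrix.range_cons, Matrix.range_cons_empty, Fintype.card_fin] at this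
    rw [h.rk]
    exact this
  have co : ∀ w ∈ W, ∃ a b c : E, a • e₁ + b • e₂ + c • e₃ = w := fun w hw =>
    Submodule.mem_span_triple.1 (sp ▸ hw)
  choose a₁ a₂ a₃ ha using fun g : S => co _ (h.mv g g.2)
  have gv : ∀ g : S, g.1 v = v + a₁ g • e₁ + a₂ g • e₂ + a₃ g • e₃ := fun g => by
    rw [add_assoc, add_assoc, ← add_assoc (a₁ g • e₁), ha, add_sub_cancel]
  refine ⟨e₁, e₂, e₃, x, y, z, a₁, a₂, a₃, h.le, li, sp ▸ h.ti, h.vv, h.ov _ m1, h.ov _ m2,
    h.ov _ m3, fun g => f1 g g.2, g2, g3, gv, fun b₁ b₂ b₃ => ?_, ?_⟩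
  · obtain ⟨g, hg, e⟩ := h.tr (b₁ • e₁ + b₂ • e₂ + b₃ • e₃)
      (W.add_mem (W.add_mem (W.smul_mem _ m1) (W.smul_mem _ m2)) (W.smul_mem _ m3))
    exact ⟨⟨g, hg⟩, uq' _ _ _ _ _ _ ((gv ⟨g, hg⟩).symm.trans e)⟩
  · rintro ⟨n, h1, h2, h3, h4⟩
    obtain ⟨-, m, hm, k1, k2⟩ := hA1 fun c => h4 (uq _ _ _ (AddSubgroup.mem_bot.1 (c
      ⟨(ha n).symm ▸ h.mv n n.2, n, n.2, fun w hw => by
        obtain ⟨a, b, d, rfl⟩ := co w hw
        rw [map_add, map_add, map_smul, map_smul, map_smul, f1 n n.2, g2, g3, h1, h2, h3]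
        module, by rw [ha, add_sub_cancel]⟩)))
    have p2 := uq (x ⟨m, hm⟩) 0 0 (by
      have := (g2 ⟨m, hm⟩).symm.trans (k1 _ m2)
      rw [add_eq_left.1 this, zero_smul, zero_smul, add_zero, add_zero])
    have p3 := uq (z ⟨m, hm⟩) (y ⟨m, hm⟩) 0 (by
      have := (g3 ⟨m, hm⟩).symm.trans (k1 _ m3)
      rw [add_assoc, add_eq_left] at this
      rw [zero_smul, add_zero, add_comm, this])
    exact ⟨⟨m, hm⟩, p2.1, p3.2.1, p3.1, uq' _ _ _ 1 0 0 ((gv ⟨m, hm⟩).symm.trans (k2.trans (by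
      rw [one_smul, zero_smul, zero_smul, add_zero, add_zero])))⟩

end Cfsg.Agent.H72.UgTv0
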