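import Cfsg.Agent.H41.S6Kit2

/-!
# Involution with centralizer `2 × Sp₆(2)`: case I, the conjugates of `t` in `N(E₃)`
-/

set_option autoImplicit false

namespace Cfsg.Agent.H72.SpI1

open Cfsg Subgroup
open Cfsg.Agent.H44 Cfsg.Agent.H55.Sp6 Cfsg.Agent.H2.L3E Cfsg.Agent.H41.S6

universe u

variable {G : Type u} [Group G] {ι : Sp →* G} {t : G}

theorem csq (h : Hy ι t) {y : G} (hy : IsConj t y) : y * y = 1 := by
  obtain ⟨c, rfl⟩ := isConj_iff.1 hy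
  calc _ = c * (t * t) * c⁻¹ := by group
    _ = 1 := by rw [h.tt]; group

theorem unconj (m l : G) : m⁻¹ * (m * l * m⁻¹) * m⁻¹⁻¹ = l := by group

theorem star (k : KF) (h : Hy ι t) (nl : NL ι t) (ci : CI ι t) {y : G} (hy : IsConj t y)
    (hc : y * t = t * y) : ∃ v < 64, y = t * ι (g v) := by
  obtain ⟨l, rfl | rfl⟩ := h.cen y hc
  · exact absurd hy (nl l)
  have h1 : l * l = 1 := h.inj <| by
    have := csq h hy
    rwa [mul_assoc, ← mul_assoc (ι l), ← h.ct, mul_assoc, h.ttx, ← map_mul, ← map_one ι] at this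
  obtain ⟨m, hm⟩ := k.b.cls l h1
  obtain ⟨u, -, e⟩ := (ci _ hm).1 (hy.trans (isConj_iff.2 ⟨ι m, h.conj_tl m l⟩))
  refine ⟨act m⁻¹ u, act_lt _ _, ?_⟩
  rw [← conj_g, ← e, unconj]

theorem ex_new (l : List ℕ) (hl : l.length < 8) : ∃ x < 8, x ∉ l := by
  by_contra k
  push Not at k
  have := (List.subperm_of_subset (List.nodup_range (n := 8))
    fun x hx => k x (List.mem_range.1 hx)).length_le
  rw [List.length_range] at this
  omega

def nx (l : List ℕ) (f : ℕ → Bool) : Bool := (List.range 8).all fun x => decide (x ∈ l) || f x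

theorem nx_spec {l : List ℕ} {f : ℕ → Bool} (h : nx l f = true) {x : ℕ} (hx : x < 8)
    (hl : x ∉ l) : f x = true := by
  simpa [hl] using List.all_eq_true.1 h x (List.mem_range.2 hx)

theorem codes : ∀ a < 8, a ∉ [0] → ∀ q < 8, q ∉ [0, a] → ∀ b < 8, b ∉ [0, a, q] →
    ∀ r < 8, r ∉ [0, a, q, b] → ∀ c < 8, c ∉ [0, a, q, b, r] → ∀ s < 8, s ∉ [0, a, q, b, r, c] →
      ∀ e < 8, e ∉ [0, a, q, b, r, c, s] →
        [0, bc 0 ^^^ bc a, bc q ^^^ bc b, bc r ^^^ bc c, bc s ^^^ bc e].Nodup ∧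
          bc 0 ^^^ bc a ^^^ (bc q ^^^ bc b) ^^^ (bc r ^^^ bc c) ^^^ (bc s ^^^ bc e) = 0 := by
  have key : nx [0] (fun a => nx [0, a] fun q => nx [0, a, q] fun b => nx [0, a, q, b] fun r =>
      nx [0, a, q, b, r] fun c => nx [0, a, q, b, r, c] fun s => nx [0, a, q, b, r, c, s] fun e =>
        decide ([0, bc 0 ^^^ bc a, bc q ^^^ bc b, bc r ^^^ bc c, bc s ^^^ bc e].Nodup ∧
          bc 0 ^^^ bc a ^^^ (bc q ^^^ bc b) ^^^ (bc r ^^^ bc c) ^^^ (bc s ^^^ bc e) = 0)) = true := by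
    decide +kernel
  intro a ha na q hq nq b hb nb r hr nr c hc nc s hs ns e he ne
  exact of_decide_eq_true (nx_spec (nx_spec (nx_spec (nx_spec (nx_spec (nx_spec (nx_spec key ha na)
    hq nq) hb nb) hr nr) hc nc) hs ns) he ne)

theorem reps {π : ℕ → ℕ} (π8 : ∀ u < 8, π u < 8) (ππ : ∀ u < 8, π (π u) = u)
    (hf : ∀ u < 8, π u ≠ u) : ∃ q < 8, ∃ r < 8, ∃ s < 8,
      [0, bc 0 ^^^ bc (π 0), bc q ^^^ bc (π q), bc r ^^^ bc (π r), bc s ^^^ bc (π s)].Nodup ∧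
        bc 0 ^^^ bc (π 0) ^^^ (bc q ^^^ bc (π q)) ^^^ (bc r ^^^ bc (π r)) ^^^
          (bc s ^^^ bc (π s)) = 0 := by
  have h0 : (0 : ℕ) < 8 := by norm_num
  obtain ⟨q, hq, nq⟩ := ex_new [0, π 0] (by simp)
  obtain ⟨r, hr, nr⟩ := ex_new [0, π 0, q, π q] (by simp)
  obtain ⟨s, hs, ns⟩ := ex_new [0, π 0, q, π q, r, π r] (by simp)
  have p0 := ππ 0 h0
  have pq := ππ q hq
  have pr := ππ r hr
  have ps := ππ s hs
  have := hf q hq
  have := hf r hr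
  have := hf s hs
  exact ⟨q, hq, r, hr, s, hs, codes _ (π8 0 h0) (by simpa using hf 0 h0) q hq nq _ (π8 q hq)
    (by grind) r hr nr _ (π8 r hr) (by grind) s hs ns _ (π8 s hs) (by grind)⟩

theorem i1 : I1Stmt.{u} := by
  intro k G _ _ ι t h tr nl ci d hd hdt
  have hX : ∀ u < 8, t * ι (g u) ∈ E3 ι t ∧ IsConj t (t * ι (g u)) := fun u hu =>
    ⟨h.mem_E3.2 ⟨_, g_mem_A hu, .inr rfl⟩, (ci _ (g_mem_A hu)).2 ⟨u, hu, rfl⟩⟩
  have hπ : ∀ u < 8, ∃ v < 8, d * (t * ι (g u)) * d⁻¹ = t * ι (g v) := fun u hu => by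
    have h2 : IsConj t (d * (t * ι (g u)) * d⁻¹) := (hX u hu).2.trans (isConj_iff.2 ⟨d, rfl⟩)
    obtain ⟨a, ha, e | e⟩ := h.mem_E3.1 (mem_NE.1 hd _ (hX u hu).1)
    · exact absurd (e ▸ h2) (nl a)
    · obtain ⟨v, hv, rfl⟩ := (ci a ha).1 (e ▸ h2)
      exact ⟨v, hv, e⟩
  choose! π π8 hπ using hπ
  have dd := csq h hdt
  have xinj : ∀ u < 8, ∀ v < 8, t * ι (g u) = t * ι (g v) → u = v := fun u hu v hv e =>
    g_inj (by omega) (by omega) (h.inj (mul_left_cancel e))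
  have hπ' : ∀ u < 8, d * (t * ι (g (π u))) * d⁻¹ = t * ι (g u) := fun u hu => by
    rw [← hπ u hu]
    calc _ = d * d * (t * ι (g u)) * (d * d)⁻¹ := by group
      _ = _ := by rw [dd]; group
  have ππ : ∀ u < 8, π (π u) = u := fun u hu =>
    xinj _ (π8 _ (π8 u hu)) _ hu (by rw [← hπ _ (π8 u hu), hπ' u hu])
  by_cases hf : ∃ u < 8, π u = u
  · obtain ⟨u, hu, e⟩ := hf
    obtain ⟨n, hn, e1⟩ := tr _ (hX u hu).1 (hX u hu).2
    have e2 := hπ u hu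
    rw [e, ← e1] at e2
    obtain ⟨v, hv, e3⟩ := star k h nl ci (y := n⁻¹ * d * n)
      (hdt.trans (isConj_iff.2 ⟨n⁻¹, by group⟩)) (by
        calc _ = n⁻¹ * (d * (n * t * n⁻¹) * d⁻¹) * d * n := by group
          _ = _ := by rw [e2]; group)
    have ht : t ∈ NE ι t := (h.E3_Nh (h.mem_E3.2 ⟨1, one_mem _, .inr (by simp)⟩)).1
    have h3 : ι (g v) ∈ NE ι t := by
      rw [← mul_mem_cancel_left ht, ← e3]
      exact mul_mem (mul_mem (inv_mem hn) hd) hn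
    have h4 := mem_NE.1 hn _ (hX v ((g_mem_P3_iff hv).1 (h.NE_P3 h3))).1
    rwa [← e3, show n * (n⁻¹ * d * n) * n⁻¹ = d by group] at h4
  exfalso
  push Not at hf
  obtain ⟨y, hy⟩ := isConj_iff.1 hdt
  have lt : ∀ u < 8, bc u ^^^ bc (π u) < 64 := fun u hu =>
    Nat.xor_lt_two_pow (n := 6) (bc_lt u hu) (bc_lt _ (π8 u hu))
  have hz : ∀ u < 8, ∃ v < 64, y⁻¹ * ι (ac (bc u ^^^ bc (π u))) * y = ι (g v) := fun u hu => by
    have e1 : ι (ac (bc u ^^^ bc (π u))) = t * ι (g u) * (t * ι (g (π u))) := by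
      rw [← ac_mul (bc_lt u hu) (bc_lt _ (π8 u hu)), ← g_bc hu, ← g_bc (π8 u hu), map_mul,
        mul_assoc, ← mul_assoc (ι _) t, ← h.ct, mul_assoc, h.ttx]
    have e2 := csq h (hX u hu).2
    have e3 := h.E3_comm (hX u hu).1 (hX _ (π8 u hu)).1
    have e4 := hπ u hu
    have e5 := hπ' u hu
    rw [e1]
    generalize t * ι (g u) = x at e2 e3 e4 e5
    generalize t * ι (g (π u)) = x' at e2 e3 e4 e5
    have e6 : d * (x * x') * d⁻¹ = x * x' := by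
      calc _ = d * x * d⁻¹ * (d * x' * d⁻¹) := by group
        _ = _ := by rw [e4, e5, e3]
    have e7 : x * x' * d = x * d * x⁻¹ := by
      rw [← e4, inv_eq_of_mul_eq_one_right e2]; group
    obtain ⟨v, hv, e8⟩ := star k h nl ci (y := y⁻¹ * (x * x' * d) * y)
      (hdt.trans (isConj_iff.2 ⟨y⁻¹ * x, by rw [e7]; group⟩)) (by
        calc _ = y⁻¹ * (x * x') * d * (y * t * y⁻¹) * y := by group
          _ = y⁻¹ * (d * (x * x') * d⁻¹) * d * d * y := by rw [hy, e6]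
          _ = y⁻¹ * (y * t * y⁻¹) * (x * x') * d * y := by rw [hy]; group
          _ = _ := by group)
    refine ⟨v, hv, ?_⟩
    calc _ = y⁻¹ * (x * x' * d) * y * (y⁻¹ * d⁻¹ * y) := by group
      _ = t * ι (g v) * t⁻¹ := by rw [e8, ← hy]; group
      _ = _ := by rw [h.ct]; group
  choose! v v64 hv using hz
  have ve : ∀ u < 8, ∀ w < 8, v u = v w → bc u ^^^ bc (π u) = bc w ^^^ bc (π w) :=
    fun u hu w hw e => ac_inj (lt u hu) (lt w hw) (h.inj (by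
      have := hv u hu
      rw [e, ← hv w hw] at this
      simpa using this))
  have v0 : ∀ u < 8, 0 = v u → 0 = bc u ^^^ bc (π u) := fun u hu e =>
    ac_inj (by norm_num) (lt u hu) (h.inj (by
      have := hv u hu
      rw [← e, g_zero, map_one] at this
      rw [ac_zero, map_one]
      calc _ = y * (y⁻¹ * ι (ac (bc u ^^^ bc (π u))) * y) * y⁻¹ := by rw [this]; group
        _ = _ := by group))
  have vb : ∀ u < 8, ∀ w < 8, bf (v u) (v w) = 0 := fun u hu w hw =>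
    bf_of_comm (v64 u hu) (v64 w hw) (h.inj (by
      rw [map_mul, map_mul, ← hv u hu, ← hv w hw]
      have := congrArg ι (A_comm (ac_mem (lt u hu)) (ac_mem (lt w hw)))
      rw [map_mul, map_mul] at this
      calc _ = y⁻¹ * (ι (ac (bc u ^^^ bc (π u))) * ι (ac (bc w ^^^ bc (π w)))) * y := by group
        _ = _ := by rw [this]; group))
  have h0 : (0 : ℕ) < 8 := by norm_num
  obtain ⟨q, hq, r, hr, s, hs, c1, c2⟩ := reps π8 ππ hf
  refine k.c.t4 _ (v64 0 h0) _ (v64 q hq) _ (v64 r hr) _ (v64 s hs) ?_ ?_ (h.inj ?_)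
  · simp only [List.nodup_cons, List.mem_cons, List.not_mem_nil, or_false, not_or,
      List.nodup_nil, and_true, not_false_eq_true] at c1 ⊢
    exact ⟨⟨mt (v0 _ h0) c1.1.1, mt (v0 _ hq) c1.1.2.1, mt (v0 _ hr) c1.1.2.2.1,
      mt (v0 _ hs) c1.1.2.2.2⟩, ⟨mt (ve _ h0 _ hq) c1.2.1.1, mt (ve _ h0 _ hr) c1.2.1.2.1,
      mt (ve _ h0 _ hs) c1.2.1.2.2⟩, ⟨mt (ve _ hq _ hr) c1.2.2.1.1, mt (ve _ hq _ hs) c1.2.2.1.2⟩,
      mt (ve _ hr _ hs) c1.2.2.2⟩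
  · simp [vb _ h0 _ hq, vb _ h0 _ hr, vb _ h0 _ hs, vb _ hq _ hr, vb _ hq _ hs, vb _ hr _ hs]
  · have x2 := Nat.xor_lt_two_pow (n := 6) (lt 0 h0) (lt q hq)
    have x3 := Nat.xor_lt_two_pow (n := 6) x2 (lt r hr)
    have e := congrArg (fun c => ι (ac c)) c2
    simp only [← ac_mul x3 (lt s hs), ← ac_mul x2 (lt r hr), ← ac_mul (lt 0 h0) (lt q hq),
      map_mul, ac_zero, map_one] at e
    rw [map_mul, map_mul, map_mul, ← hv 0 h0, ← hv q hq, ← hv r hr, ← hv s hs, map_one]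
    calc _ = y⁻¹ * (ι (ac (bc 0 ^^^ bc (π 0))) * ι (ac (bc q ^^^ bc (π q))) *
        ι (ac (bc r ^^^ bc (π r))) * ι (ac (bc s ^^^ bc (π s)))) * y := by group
      _ = 1 := by rw [e]; group

end Cfsg.Agent.H72.SpI1
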