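import Cfsg.Agent.H63.AnDefs2

/-! # Project AN, piece P6B: the twist respects pairs of columns -/

set_option autoImplicit false

namespace Cfsg.Agent.H72.AnP6b

open Cfsg.Agent.H63.AN
open Cfsg.Agent.H7.AA (d2 d2_apply d2_conj sign_d2)
open Equiv (swap Perm swap_apply_def)
open Equiv.Perm (sign mul_apply one_apply)

variable {α : Type} [Fintype α] [DecidableEq α] {p : Perm α}

omit [Fintype α] [DecidableEq α] in
theorem pp_of (h : p * p = 1) (e : α) : p (p e) = e := congrArg (· e) h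

omit [Fintype α] in
theorem wc_apply (h : p * p = 1) {a b : α} (hab : Two p a b) (e : α) :
    wc p a b e = if e = a ∨ e = p a ∨ e = b ∨ e = p b then p e else e := by
  obtain ⟨h1, h2, h3, h4⟩ := hab
  have := pp_of h a
  have := pp_of h b
  simp only [wc, d2_apply, swap_apply_def]
  grind

theorem wc_mem (h : p * p = 1) {a b : α} (hab : Two p a b) : wc p a b ∈ PP p :=
  ⟨sign_d2 hab.1.symm hab.2.1.symm, fun e => by rw [wc_apply h hab]; split_ifs <;> simp⟩

theorem pp_comm (h : p * p = 1) {q : Perm α} (hq : q ∈ PP p) (e : α) : q (p e) = p (q e) := by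
  have h1 := hq.2 e
  have h2 := hq.2 (p e)
  have h3 := pp_of h e
  have h4 : q (p e) = q e → p e = e := fun H => q.injective H
  grind

theorem pp_sq (h : p * p = 1) {q : Perm α} (hq : q ∈ PP p) : q * q = 1 := by
  ext e
  have h1 := hq.2 e
  have h2 := pp_comm h hq e
  have h3 := pp_of h e
  simp only [mul_apply, one_apply]
  grind

theorem pp_le (h : p * p = 1) {q : Perm α} (hq : q ∈ PP p) : q ∈ CA p :=
  mem_CA.2 ⟨Equiv.ext (pp_comm h hq), hq.1⟩

theorem sc_mem (h : p * p = 1) {x y : α} (hxy : Two p x y) : sc p x y ∈ CA p := by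
  obtain ⟨h1, h2, h3, h4⟩ := hxy
  refine mem_CA.2 ⟨Equiv.ext fun e => ?_, sign_d2 h3.symm (p.injective.ne h3.symm)⟩
  have := pp_of h x
  have := pp_of h y
  have := pp_of h e
  simp only [sc, mul_apply, d2_apply, swap_apply_def]
  grind

omit [Fintype α] in
theorem sc_sq (h : p * p = 1) {x y : α} (hxy : Two p x y) : sc p x y * sc p x y = 1 := by
  obtain ⟨h1, h2, h3, h4⟩ := hxy
  ext e
  have := pp_of h x
  have := pp_of h y
  simp only [sc, mul_apply, d2_apply, swap_apply_def, one_apply]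
  grind

theorem sc_comm (h : p * p = 1) {x y : α} (hxy : Two p x y) {q : Perm α} (hq : q ∈ PP p) :
    ((q x = x ↔ q y = y) → sc p x y * q * sc p x y * q = 1) ∧
      (¬ (q x = x ↔ q y = y) → sc p x y * q * sc p x y * q = wc p x y) := by
  have e1 : sc p x y * q * sc p x y * q = sc p x y * d2 (q x) (q y) (p (q x)) (p (q y)) := by
    rw [← pp_comm h hq, ← pp_comm h hq, ← d2_conj, inv_eq_of_mul_eq_one_right (pp_sq h hq)]
    simp only [sc, mul_assoc]
  obtain ⟨h1, h2, h3, h4⟩ := hxy
  have := pp_of h x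
  have := pp_of h y
  rw [e1]
  rcases hq.2 x with e2 | e2 <;> rcases hq.2 y with e3 | e3 <;> rw [e2, e3] <;>
    refine ⟨fun H => Equiv.ext fun e => ?_, fun H => Equiv.ext fun e => ?_⟩ <;>
    simp only [sc, wc, mul_apply, d2_apply, swap_apply_def, one_apply] <;> grind

theorem exists_col (h : 12 ≤ p.support.card) (a b c d : α) : ∃ r, p r ≠ r ∧
    (r ≠ a ∧ r ≠ p a) ∧ (r ≠ b ∧ r ≠ p b) ∧ (r ≠ c ∧ r ≠ p c) ∧ r ≠ d ∧ r ≠ p d := by
  obtain ⟨r, h1, h2⟩ := Finset.exists_mem_notMem_of_card_lt_card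
    (s := [a, p a, b, p b, c, p c, d, p d].toFinset) (t := p.support)
    ((List.toFinset_card_le _).trans_lt (by simp only [List.length]; omega))
  simp only [List.mem_toFinset, List.mem_cons, List.not_mem_nil, or_false, not_or] at h2
  exact ⟨r, Equiv.Perm.mem_support.1 h1, by tauto⟩

theorem main (h : p * p = 1) (h12 : 12 ≤ p.support.card) {c u : Perm α} (hc : c * c = 1)
    (hcp : Commute c p) (hB : ∀ q ∈ PP p, c * q * c * q = 1 ∨ c * q * c * q = u)
    (hC : ∃ q ∈ PP p, c * q * c * q ≠ 1) :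
    ∃ x y, Two p x y ∧ u = wc p x y ∧ ∀ e, p e ≠ e → c e = sc p x y e ∨ c e = p (sc p x y e) := by
  have pp := pp_of h
  have cc := pp_of hc
  have cp : ∀ e, c (p e) = p (c e) := fun e => congrArg (· e) hcp.eq
  obtain ⟨i, i1, i2, i3⟩ : ∃ i, p i ≠ i ∧ c i ≠ i ∧ c i ≠ p i := by
    by_contra H
    obtain ⟨q, hq, h1⟩ := hC
    refine h1 ?_
    have h2 : ∀ e, q (c e) = c (q e) := fun e => by
      have a1 := hq.2 e
      have a2 := hq.2 (c e)
      have a3 := pp_comm h hq e
      have a4 := cp e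
      have a5 := pp e
      have a6 : ¬ (p e ≠ e ∧ c e ≠ e ∧ c e ≠ p e) := fun e' => H ⟨e, e'⟩
      grind
    ext e
    simp only [mul_apply, one_apply, h2, cc]
    exact pp_of (pp_sq h hq) e
  have key : ∀ a r, Two p a r → c a ≠ a → c a ≠ p a → c a ≠ r → c a ≠ p r →
      c * wc p a r * c * wc p a r = u := fun a r har a1 a2 a3 a4 =>
    (hB _ (wc_mem h har)).resolve_left fun H => by
      have := congrArg (· a) H
      have b1 := pp a
      have b2 := pp r
      have b3 := pp (c a)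
      have b4 := cp a
      have b5 := cp (c a)
      have b6 := cc a
      have b7 := har.1
      simp only [mul_apply, one_apply, wc_apply h har] at this
      grind
  have hij : Two p i (c i) := ⟨i1, by rw [← cp]; exact c.injective.ne i1, i2, i3⟩
  have hfix : ∀ l, p l ≠ l → l ≠ i → l ≠ p i → l ≠ c i → l ≠ p (c i) → c l = l ∨ c l = p l := by
    intro l l0 l1 l2 l3 l4
    by_contra H
    push Not at H
    obtain ⟨r, r0, ⟨r1, r2⟩, ⟨r3, r4⟩, ⟨r5, r6⟩, r7, r8⟩ := exists_col h12 i (c i) l (c l)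
    have b1 := pp r
    have hir : Two p i r := ⟨i1, r0, r1, r2⟩
    have hlr : Two p l r := ⟨l0, r0, r5, r6⟩
    have e1 := key i r hir i2 i3 r3.symm (by grind)
    have e2 := key l r hlr H.1 H.2 r7.symm (by grind)
    have := congrArg (· i) (e1.trans e2.symm)
    have b2 := pp i
    have b3 := pp (c i)
    have b4 := cp i
    have b5 := cp (c i)
    have b6 := cc i
    have b7 := pp l
    simp only [mul_apply, wc_apply h hir, wc_apply h hlr] at this
    grind
  refine ⟨i, c i, hij, ?_, fun e he => ?_⟩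
  · obtain ⟨r, r0, ⟨r1, r2⟩, ⟨r3, r4⟩, -⟩ := exists_col h12 i (c i) i i
    have b1 := pp r
    have hir : Two p i r := ⟨i1, r0, r1, r2⟩
    have e1 := key i r hir i2 i3 r3.symm (by grind)
    have e2 : c * wc p i r * c = d2 (c i) (p (c i)) (c r) (p (c r)) := by
      rw [← cp, ← cp, ← d2_conj, inv_eq_of_mul_eq_one_right hc, wc]
    rw [← e1, e2]
    have b2 := pp i
    have b3 := pp (c i)
    have b4 := hij.2.1
    have e3 := hfix r r0 r1 r2 r3 r4
    clear hfix key hB hC cp cc pp e1 e2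
    rcases e3 with e3 | e3 <;> rw [e3] <;> ext e <;>
      simp only [wc, mul_apply, d2_apply, swap_apply_def] <;> grind (splits := 30)
  · have b1 := hfix e he
    have b2 := pp i
    have b3 := pp (c i)
    have b4 := cp i
    have b5 := cp (c i)
    have b6 := cc i
    have b7 := hij.2.1
    simp only [sc, d2_apply, swap_apply_def]
    grind

theorem p6b : P6bStmt := fun α _ _ _ p p' φ φ' T tw h' h12 h12' him x y hxy => by
  have h := tw.p2
  have s1 := sc_mem h hxy
  have w1 := wc_mem h hxy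
  have one : φ 1 = 1 := by
    have := tw.mul 1 (one_mem _) 1 (one_mem _)
    rw [mul_one] at this
    exact (mul_eq_left.1 this.symm)
  have key : ∀ q ∈ PP p, φ (sc p x y) * φ q * φ (sc p x y) * φ q =
      φ (sc p x y * q * sc p x y * q) := fun q hq => by
    have q1 := pp_le h hq
    rw [tw.mul _ (mul_mem (mul_mem s1 q1) s1) _ q1, tw.mul _ (mul_mem s1 q1) _ s1, tw.mul _ s1 _ q1]
  refine main h' h12' (by rw [← tw.mul _ s1 _ s1, sc_sq h hxy, one]) (tw.cm _ s1) ?_ ?_
  · rw [← him]
    rintro _ ⟨q, hq, rfl⟩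
    rw [key q hq]
    by_cases e : q x = x ↔ q y = y
    · rw [(sc_comm h hxy hq).1 e, one]; exact Or.inl rfl
    · rw [(sc_comm h hxy hq).2 e]; exact Or.inr rfl
  · obtain ⟨l, l0, ⟨l1, l2⟩, ⟨l3, l4⟩, -⟩ := exists_col h12 x y x x
    have hxl : Two p x l := ⟨hxy.1, l0, l1, l2⟩
    have hq := wc_mem h hxl
    refine ⟨_, him ▸ Set.mem_image_of_mem φ hq, ?_⟩
    obtain ⟨h1, h2, h3, h4⟩ := id hxy
    have b1 := pp_of h l
    rw [key _ hq, (sc_comm h hxy hq).2 (by simp only [wc_apply h hxl]; grind)]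
    intro H
    have := congrArg (· x) (tw.inj _ (pp_le h w1) (pp_sq h w1) H)
    simp only [wc_apply h hxy, one_apply] at this
    grind

end Cfsg.Agent.H72.AnP6b
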