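import Cfsg.Agent.H97.JnDefs

/-! # Project JN, piece EXT: the extension by an element of order five -/

set_option autoImplicit false

namespace Cfsg.Agent.H97.JM

open Subgroup

universe u

theorem qEXT : EXT.{u} := by
  intro G _ _ X H W f hc ho hX hH hW
  have hM : closure ({X, H, W, f} : Set G) = closure {X, H, W} ⊔ zpowers f := by
    rw [zpowers_eq_closure, ← Subgroup.closure_union]
    congr 1
    ext x
    simp only [Set.mem_insert_iff, Set.mem_singleton_iff, Set.mem_union, or_assoc]
  have hf : f ∈ normalizer (closure ({X, H, W} : Set G) : Set G) := by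
    refine mem_normalizer_fintype fun n hn =>
      (closure_le ((closure {X, H, W}).comap (MulAut.conj f).toMonoidHom)).2 ?_ hn
    rintro _ (rfl | rfl | rfl) <;>
      simp only [SetLike.mem_coe, mem_comap, MulEquiv.coe_toMonoidHom, MulAut.conj_apply]
    · rw [hX, mul_inv_cancel_right]; exact subset_closure (by simp)
    · rw [hH, mul_inv_cancel_right]; exact pow_mem (subset_closure (by simp)) _
    · rw [hW, mul_inv_cancel_right]; exact subset_closure (by simp)
  rw [hM]
  generalize closure ({X, H, W} : Set G) = K at hc hf ⊢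
  haveI hn : (K.subgroupOf (K ⊔ zpowers f)).Normal :=
    normal_subgroupOf_of_le_normalizer (sup_le le_normalizer (zpowers_le.2 hf))
  have e := subgroupOfEquivOfLe (le_sup_left : K ≤ K ⊔ zpowers f)
  have c1 := (Nat.card_congr e.toEquiv).trans hc
  have c2 := (Nat.card_congr (subgroupOfEquivOfLe
    (le_sup_right : zpowers f ≤ K ⊔ zpowers f)).toEquiv).trans ((Nat.card_zpowers f).trans ho)
  have hd : Disjoint (K.subgroupOf (K ⊔ zpowers f)) ((zpowers f).subgroupOf (K ⊔ zpowers f)) :=
    disjoint_iff.2 (inf_eq_bot_of_coprime (by rw [c1, c2]; norm_num))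
  have hi : (K.subgroupOf (K ⊔ zpowers f)).index = 5 := by
    rw [← relIndex_top_right, ← subgroupOf_self, subgroupOf_sup le_sup_left le_sup_right,
      relIndex_sup_left, relIndex, subgroupOf_eq_bot.2 hd, index_bot, c2]
  refine ⟨?_, _, hn, hi, ⟨e⟩⟩
  rw [← (K.subgroupOf (K ⊔ zpowers f)).index_mul_card, hi, c1]

end Cfsg.Agent.H97.JM
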