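import Cfsg.Agent.H72.NGPr
import Cfsg.Agent.H81.QTL
import Cfsg.Agent.S1851
import Cfsg.Agent.S0205

/-!
QTKE-groups with `ℒ_f(G, T) = ∅` and `C(Z)` in two maximal 2-locals: all 2-locals over `T` are
solvable, and there is a pair of minimal overgroups.
-/

set_option autoImplicit false

namespace Cfsg.Agent.H72.QA

open Cfsg Cfsg.Agent.H98 Cfsg.Agent.H84 Cfsg.Agent.H71.NG Cfsg.Agent.H72.NG Subgroup
open scoped commutatorElement

variable {G : Type*} [Group G]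

/-- The 2-local subgroups over the Sylow 2-subgroup `T` are solvable of characteristic 2, and the
2-local 3-rank is at most 2. -/
structure HA (T : Subgroup G) : Prop where
  syl : SylIn 2 T ⊤
  solv : ∀ N : Subgroup G, IsTwoLocal N → T ≤ N → Group.IsSolvable N
  ch : ∀ N : Subgroup G, IsTwoLocal N → T ≤ N → Ch2 N
  rank : ∀ N : Subgroup G, IsTwoLocal N → PRankLE 3 2 N

variable [Finite G]

theorem ch2_over {T H : Subgroup G} (hT : SylIn 2 T ⊤)
    (hc : ∀ N : Subgroup G, IsTwoLocal N → T ≤ N → Ch2 N) (hTH : T ≤ H)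
    (h0 : pCoreOf 2 H ≠ ⊥) : Ch2 H := by
  have hn := le_normalizer_pCoreOf 2 H
  exact ch2_of_le (hc _ (loc_of (pg_O H) h0) (hTH.trans hn))
    ((pCoreOf_le_of_sylIn (hT.mono (hTH.trans hn) le_top)).trans hTH) hn

theorem solv_of_syl {S H : Subgroup G} (hS : SylIn 2 S H) (hn : H ≤ normalizer (S : Set G)) :
    Group.IsSolvable H := by
  haveI := (normal_subgroupOf_iff_le_normalizer hS.le).2 hn
  haveI := H4.isSolvable_of_isPGroup (hS.isPGroup.of_equiv (subgroupOfEquivOfLe hS.le).symm)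
  haveI := S0205.result (G := H ⧸ S.subgroupOf H)
    (Nat.not_even_iff_odd.1 fun e => hS.not_dvd_relIndex (even_iff_two_dvd.1 e))
  exact Group.isSolvable_of_ker_le_range (S.subgroupOf H).subtype
    (QuotientGroup.mk' (S.subgroupOf H)) (by simp)

section

variable (hQ : IsQTKE G) (T : Sylow 2 G)
include hQ

theorem qt_ch (N : Subgroup G) (hN : IsTwoLocal N) (hT : (T : Subgroup G) ≤ N) : Ch2 N :=
  (H83.charP_iff (p := 2)).2 (hQ.2.2 N hN ⟨T, hT⟩)

variable (hE : calLf (T : Subgroup G) = ∅)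
include hE

/-- A `𝒞`-component of `H ≥ T` centralizes `Ω₁ Z(O₂(H))`. -/
theorem cg_cent {H L : Subgroup G} (hT : (T : Subgroup G) ≤ H) (h0 : pCoreOf 2 H ≠ ⊥)
    (hs : H83.SubnIn L H) (hc : H81.QT.CG L) :
    L ≤ centralizer (om (pCoreOf 2 H) : Set G) := by
  have ch : Ch2 H := ch2_over (sylIn_top T) (qt_ch hQ T) hT h0
  have hL := H81.QT.mem_calL_of T (H81.QT.mem_calH_iff.2 h0) hT hs hc
  have hr := H83.resOf_eq_self_of_perfect (p := 2) hc.perf
  have hV : moduleV L = ⊥ := by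
    by_contra e
    have : L ∈ calLf (T : Subgroup G) := ⟨hL, ⟨hc.ne, (S1851.odd_eq L).trans hr,
      H83.charP_iff_fstar.1 (H83.CharP.of_subnIn (p := 2) ch hs)⟩, e⟩
    rw [hE] at this
    exact this
  have hn : pCoreOf 2 H ≤ normalizer (L : Set G) := hr ▸ hs.pCoreOf_le_norm_resOf
  have h1 : ⁅om (pCoreOf 2 H), L⁆ ≤ om (pCoreOf 2 H) :=
    commutator_le_left_of_le_normalizer (hs.1.trans (norm_om (le_normalizer_pCoreOf 2 H)))
  have h2 : ⁅om (pCoreOf 2 H), L⁆ ≤ om (pCoreOf 2 L) :=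
    le_om (H53.IsElementaryAbelian.of_le' (ea_om _) h1)
      ((le_inf (h1.trans (om_le _)) (commutator_le_right_of_le_normalizer
        ((om_le _).trans hn))).trans (pCoreOf_inf_le hs.1))
      (h1.trans ((om_le_c _).trans (centralizer_anti hs.pCoreOf_le)))
  exact le_centralizer_comm.1 (commutator_eq_bot_iff_le_centralizer.1
    (H52.commutator_eq_bot_of_perfect hc.perf
      (le_bot_iff.1 ((commutator_mono h2 le_rfl).trans hV.le))))

/-- The perfect subgroups of a member of `ℋ(T)` centralize `Ω₁ Z(T)`. -/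
theorem perf_cent {H Y : Subgroup G} (hT : (T : Subgroup G) ≤ H) (h0 : pCoreOf 2 H ≠ ⊥)
    (hY : Y ≤ H) (hp : ⁅Y, Y⁆ = Y) : Y ≤ centralizer (om (T : Subgroup G) : Set G) := by
  have ch : Ch2 H := ch2_over (sylIn_top T) (qt_ch hQ T) hT h0
  have hS : SylIn 2 (T : Subgroup G) H := sylIn_of_sylow_le T hT
  obtain ⟨ea, hV, red⟩ := H82.NG.red_ncl ch hS
  set V := ncl (om (T : Subgroup G)) H
  have hVn : H ≤ normalizer (V : Set G) := norm_ncl _ _
  set D := H ⊓ centralizer (V : Set G)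
  have hD : H ≤ normalizer (D : Set G) :=
    inf_le_normalizer_inf le_normalizer (le_normalizer_centralizer hVn)
  have hSD := hS.inf_of_normal (inf_le_left : D ≤ H) hD
  set S := (T : Subgroup G) ⊓ D
  set N := H ⊓ normalizer (S : Set G)
  have hTN : (T : Subgroup G) ≤ N :=
    le_inf hT (inf_le_normalizer_inf le_normalizer (hT.trans hD))
  have hQS : pCoreOf 2 H ≤ S := le_inf (pCoreOf_le_of_sylIn hS)
    (le_inf (O_le _) ((le_c_om _).trans (centralizer_anti hV)))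
  have hSN : S ≤ pCoreOf 2 N :=
    le_pCoreOf (inf_le_left.trans hTN) inf_le_right hSD.isPGroup
  have fr : ∀ g ∈ H, ∃ d ∈ D, ∃ n ∈ N, g = d * n := fun g hg => by
    obtain ⟨d, hd, n, hn, hn', e⟩ := hSD.frattini inf_le_left hD hg
    exact ⟨d, hd, n, ⟨hn, hn'⟩, e⟩
  have hON : pCoreOf 2 N ≤ centralizer (V : Set G) := by
    have hOH : pCoreOf 2 N ≤ H := (O_le _).trans inf_le_left
    refine le_sup_right.trans (red (D ⊔ pCoreOf 2 N) (sup_le inf_le_left hOH) le_sup_left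
      (fun g hg => ?_) fun r hr => ?_)
    · obtain ⟨d, hd, n, hn, rfl⟩ := fr g hg
      exact mul_mem (le_normalizer (mem_sup_left hd))
        (le_normalizer_sup (inf_le_left.trans hD) (le_normalizer_pCoreOf 2 N) hn)
    · obtain ⟨d, hd, o, ho, rfl⟩ := (H53.mem_sup_of_le_normalizer (hOH.trans hD)).1 hr
      obtain ⟨k, hk⟩ := exists_pow_eq_one (pg_O N) ho
      refine ⟨k, ?_⟩
      haveI := (normal_subgroupOf_iff_le_normalizer (inf_le_left : D ≤ H)).2 hD
      have e : (QuotientGroup.mk' (D.subgroupOf H)) (⟨d * o, mul_mem hd.1 (hOH ho)⟩ ^ 2 ^ k) = 1 := by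
        have e1 : (⟨d * o, mul_mem hd.1 (hOH ho)⟩ : H) = ⟨d, hd.1⟩ * ⟨o, hOH ho⟩ := rfl
        have e2 : (⟨o, hOH ho⟩ : H) ^ 2 ^ k = 1 := Subtype.ext hk
        have e3 : QuotientGroup.mk' (D.subgroupOf H) ⟨d, hd.1⟩ = 1 :=
          (QuotientGroup.eq_one_iff _).2 hd
        rw [map_pow, e1, map_mul, e3, one_mul, ← map_pow, e2, map_one]
      exact ((QuotientGroup.eq_one_iff _).1 e).2
  have hN : Group.IsSolvable N := by
    by_contra hns
    obtain ⟨L, hL, -⟩ := H81.QT.exists_calC_le (G := N) (S := ⊤) IsSubnormal.top fun h =>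
      hns (Group.isSolvable_of_isSolvable_injective (f := (topEquiv (G := N)).symm.toMonoidHom)
        (topEquiv (G := N)).symm.injective)
    have hL' : (L.map N.subtype).subgroupOf N ∈ calC N := by
      rwa [subgroupOf, comap_map_eq_self_of_injective N.subtype_injective]
    obtain ⟨hs, hc⟩ := (H81.QT.subgroupOf_mem_calC_iff (map_subtype_le L)).1 hL'
    have h1 := cg_cent hQ T hE hTN (ne_bot_of_le (hQS.trans hSN) h0) hs hc
    have h2 : L.map N.subtype ≤ D ⊓ normalizer (S : Set G) :=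
      le_inf (le_inf (hs.1.trans inf_le_left) (h1.trans (centralizer_anti (le_om ea
        ((hV.trans (om_le _)).trans (hQS.trans hSN)) (le_centralizer_comm.1 hON)))))
        (hs.1.trans inf_le_right)
    exact hc.not_solvable (solv_of_le h2 (solv_of_syl
      (hSD.mono (le_inf hSD.le le_normalizer) inf_le_left) inf_le_right))
  refine (H81.QT.le_of_perfect_of_le_sup_aux hp hN (inf_le_left.trans hD) fun y hy => ?_).trans
    (inf_le_right.trans (centralizer_anti (le_ncl _ _)))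
  obtain ⟨d, hd, n, hn, rfl⟩ := fr y (hY hy)
  exact mul_mem_sup hd hn

theorem ha_of {M₁ M₂ : Subgroup G}
    (h₁ : M₁ ∈ maxTwoLocalsContaining (centralizer (om (T : Subgroup G) : Set G)))
    (h₂ : M₂ ∈ maxTwoLocalsContaining (centralizer (om (T : Subgroup G) : Set G)))
    (hne : M₁ ≠ M₂) : HA (T : Subgroup G) := by
  set C := centralizer (om (T : Subgroup G) : Set G)
  have key : ∀ N, IsTwoLocal N → (T : Subgroup G) ≤ N → H81.QT.pres N ≤ H81.QT.pres C :=
    fun N hN hT => H81.QT.le_pres (perf_cent hQ T hE hT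
      (H81.QT.mem_calH_iff.1 (H81.QT.mem_calH_of_twoLocal hN)) (H81.QT.pres_le N)
      (H81.QT.pres_perfect N)) (H81.QT.pres_perfect N)
  have hTC : (T : Subgroup G) ≤ C := le_c_om _
  have hn : ∀ M ∈ maxTwoLocalsContaining C, M ≤ normalizer (H81.QT.pres C : Set G) := fun M hM => by
    rw [← le_antisymm (key M hM.1.1 (hTC.trans hM.2))
      (H81.QT.le_pres ((H81.QT.pres_le C).trans hM.2) (H81.QT.pres_perfect C))]
    exact le_normalizer.trans (H81.QT.norm_pres M)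
  have h0 : H81.QT.pres C = ⊥ := by
    by_contra e
    have ch := ch2_normal (qt_ch hQ T M₁ h₁.1.1 (hTC.trans h₁.2))
      ((H81.QT.pres_le C).trans h₁.2) (hn M₁ h₁)
    have hO : pCoreOf 2 (H81.QT.pres C) ≠ ⊥ := fun e' => e (le_bot_iff.1 (by
      refine le_trans (le_inf le_rfl ?_) (ch.trans e'.le)
      rw [e']
      exact le_centralizer_comm.1 bot_le))
    exact hne ((H24.NG.max_normalizer h₁.1 (pg_O _) hO (norm_O (hn M₁ h₁))).symm.trans
      (H24.NG.max_normalizer h₂.1 (pg_O _) hO (norm_O (hn M₂ h₂))))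
  exact ⟨sylIn_top T, fun N hN hT => H81.QT.solvable_of_pres_eq_bot
    (le_bot_iff.1 ((key N hN hT).trans h0.le)), qt_ch hQ T,
    fun N hN => hQ.1 3 Nat.prime_three (by decide) N hN⟩

end

theorem HA.sd {T B₀ G₁ N : Subgroup G} (h : HA T) (hN : IsTwoLocal N) (hT : T ≤ B₀)
    (hc : B₀ ⋖ G₁) (hG : G₁ ≤ N) : Sd B₀ G₁ := by
  have h1 := hT.trans hc.le
  have h2 := h1.trans hG
  exact ⟨hc, solv_of_le hG (h.solv N hN h2), ch2_of_le (h.ch N hN h2)
    ((pCoreOf_le_of_sylIn (h.syl.mono h2 le_top)).trans h1) hG, T, h.syl.mono h1 le_top, hT⟩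

/-- Two maximal 2-locals over `C` with largest intersection give a pair. -/
theorem HA.exists_pr {T C M₁ M₂ : Subgroup G} (h : HA T) (hT : T ≤ C)
    (h₁ : M₁ ∈ maxTwoLocalsContaining C) (h₂ : M₂ ∈ maxTwoLocalsContaining C) (hne : M₁ ≠ M₂) :
    ∃ B₀ G₁ G₂ : Subgroup G, Pr B₀ G₁ G₂ ∧ M₁ ⊓ M₂ ≤ B₀ := by
  obtain ⟨B₀, hB, ⟨M, N, hM, hN, hMN, rfl⟩, hmax⟩ := Finite.exists_le_maximal
    (p := fun B : Subgroup G => ∃ M N, M ∈ maxTwoLocalsContaining C ∧
      N ∈ maxTwoLocalsContaining C ∧ M ≠ N ∧ B = M ⊓ N) ⟨M₁, M₂, h₁, h₂, hne, rfl⟩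
  have hC : C ≤ M ⊓ N := le_inf hM.2 hN.2
  obtain ⟨G₁, c₁, l₁⟩ := exists_covBy_le_of_lt (lt_of_le_of_ne (inf_le_left : M ⊓ N ≤ M)
    fun e => hMN (hM.1.2 N hN.1.1 (inf_eq_left.1 e)).symm)
  obtain ⟨G₂, c₂, l₂⟩ := exists_covBy_le_of_lt (lt_of_le_of_ne (inf_le_right : M ⊓ N ≤ N)
    fun e => hMN (hN.1.2 M hM.1.1 (inf_eq_right.1 e)))
  refine ⟨_, G₁, G₂, ⟨h.sd hM.1.1 (hT.trans hC) c₁ l₁, h.sd hN.1.1 (hT.trans hC) c₂ l₂,
    fun X hX n₁ n₂ => ?_⟩, hB⟩
  by_contra e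
  obtain ⟨L, hL, hXL⟩ := H81.QT.exists_maxTwoLocal (loc_of hX e)
  have hL' : L ∈ maxTwoLocalsContaining C := ⟨hL, hC.trans (c₁.le.trans (n₁.trans hXL))⟩
  have key : ∀ P Q, P ∈ maxTwoLocalsContaining C → M ⊓ N ⋖ Q → Q ≤ P → Q ≤ L → P = L :=
    fun P Q hP c l l' => by
      by_contra e'
      exact c.lt.not_ge ((le_inf l l').trans
        (hmax ⟨P, L, hP, hL', e', rfl⟩ (c.le.trans (le_inf l l'))))
  exact hMN ((key M G₁ hM c₁ l₁ (n₁.trans hXL)).trans (key N G₂ hN c₂ l₂ (n₂.trans hXL)).symm)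

end Cfsg.Agent.H72.QA
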