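import Cfsg.Agent.H72.QA0
import Cfsg.Agent.H82.Involves

/-!
Pairs of `A₄`'s normalized by a 2-group (no hypothesis on the ambient group), and the block lemma
over a Sylow 2-subgroup whose 2-local overgroups are solvable.
-/

set_option autoImplicit false

namespace Cfsg.Agent.H72.QA

open Cfsg Cfsg.Agent.H98 Cfsg.Agent.H84 Cfsg.Agent.H71.NG Cfsg.Agent.H72.NG Subgroup
open scoped commutatorElement

variable {G : Type*} [Group G] [Finite G]

/-- `K ≅ A₄` is normalized by `D ≥ O₂(K) = ⟨x, a⟩` and `x` is central in `D`. -/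
structure HW (K D : Subgroup G) (x a : G) : Prop where
  k : A4 K
  n : D ≤ normalizer (K : Set G)
  ia : Inv2 x a
  W : pCoreOf 2 K = four x a
  xD : x ∈ D
  aD : a ∈ D
  xc : ∀ d ∈ D, d * x = x * d

omit [Finite G] in
theorem cj_four (g a b : G) : cj g (four a b) = four (g * a * g⁻¹) (g * b * g⁻¹) := by
  rw [four, four, cj_sup]
  exact congrArg₂ _ (H83.cj_zpowers g a) (H83.cj_zpowers g b)

theorem exists_HW {K K' D : Subgroup G} (hK : A4 K) (hK' : A4 K')
    (n : D ≤ normalizer (K : Set G)) (n' : D ≤ normalizer (K' : Set G))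
    (w : pCoreOf 2 K ≤ D) (w' : pCoreOf 2 K' ≤ D) (hne : ⁅pCoreOf 2 K, pCoreOf 2 K'⁆ ≠ ⊥) :
    ∃ x a b, HW K D x a ∧ HW K' D x b ∧ a * b ≠ b * a := by
  have nW := norm_O n
  have nW' := norm_O n'
  obtain ⟨a, ha, b, hb, hab⟩ : ∃ a ∈ pCoreOf 2 K, ∃ b ∈ pCoreOf 2 K', a * b ≠ b * a := by
    by_contra hc
    push Not at hc
    exact hne (le_bot_iff.mp (commutator_le.mpr fun a ha b hb =>
      commutatorElement_eq_one_iff_mul_comm.mpr (hc a ha b hb)))
  obtain ⟨x, hx, hx', ab⟩ : ∃ x ∈ pCoreOf 2 K, x ∈ pCoreOf 2 K' ∧ b * a = x * (a * b) := by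
    refine ⟨b * a * b⁻¹ * a⁻¹, mul_mem (conj_mem_of_le_normalizer nW (w' hb) ha) (inv_mem ha), ?_,
      by group⟩
    rw [mul_assoc, mul_assoc, ← mul_assoc a]
    exact mul_mem hb (conj_mem_of_le_normalizer nW' (w ha) (inv_mem hb))
  have haW : a ∉ pCoreOf 2 K' := fun e => hab (H93.NG.A4_comm hK' e hb)
  have hbW : b ∉ pCoreOf 2 K := fun e => hab (H93.NG.A4_comm hK ha e)
  have hx1 : x ≠ 1 := fun e => hab (by simpa [e] using ab.symm)
  have ia : Inv2 x a := ⟨H93.NG.A4_sq hK hx, H93.NG.A4_sq hK ha, hx1, fun e => haW (e ▸ one_mem _),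
    fun e => haW (e ▸ hx'), H93.NG.A4_comm hK hx ha⟩
  have ib : Inv2 x b := ⟨H93.NG.A4_sq hK hx, H93.NG.A4_sq hK' hb, hx1,
    fun e => hbW (e ▸ one_mem _), fun e => hbW (e ▸ hx), H93.NG.A4_comm hK' hx' hb⟩
  have W := (eq_of_card_four hK.card (four_le hx ha) (left_mem_four _ _) (right_mem_four _ _)
    ia.na ia.nb ia.ne).symm
  have W' := (eq_of_card_four hK'.card (four_le hx' hb) (left_mem_four _ _) (right_mem_four _ _)
    ib.na ib.nb ib.ne).symm
  have xc : ∀ d ∈ D, d * x = x * d := fun d hd => by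
    have h1 := conj_mem_of_le_normalizer nW hd hx
    have h2 := conj_mem_of_le_normalizer nW' hd hx'
    rw [W, ia.mem_iff] at h1
    rcases h1 with h1 | h1 | h1 | h1
    · exact absurd (by simpa using h1) hx1
    · exact mul_inv_eq_iff_eq_mul.mp h1
    · exact absurd (h1 ▸ h2) haW
    · exact absurd ((mul_mem_cancel_left hx').mp (h1 ▸ h2)) haW
  exact ⟨x, a, b, ⟨hK, n, ia, W, w hx, w ha, xc⟩, ⟨hK', n', ib, W', w hx, w' hb, xc⟩, hab⟩

namespace HW

variable {K K' K'' D : Subgroup G} {x y a b c : G} (s : HW K D x a)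
include s

omit [Finite G] in
theorem x_mem : x ∈ pCoreOf 2 K := s.W ▸ left_mem_four x a

omit [Finite G] in
theorem a_mem : a ∈ pCoreOf 2 K := s.W ▸ right_mem_four x a

omit [Finite G] in
theorem O_le : pCoreOf 2 K ≤ D := s.W ▸ four_le s.xD s.aD

theorem not_cent : ¬ K ≤ centralizer {x} := fun e => s.ia.na (H93.NG.A4_eq_one s.k s.x_mem e)

omit [Finite G] in
theorem cj {g : G} (hg : g ∈ normalizer (D : Set G)) :
    HW (cj g K) D (g * x * g⁻¹) (g * a * g⁻¹) :=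
  ⟨a4_cj s.k g, cj_eq_of_mem_normalizer hg ▸ cj_le_norm s.n g, s.ia.conj g,
    by rw [← cj_pCoreOf, s.W, cj_four], conj_mem_of_mem_normalizer hg s.xD,
    conj_mem_of_mem_normalizer hg s.aD, fun d hd => by
      calc _ = g * (g⁻¹ * d * g * x) * g⁻¹ := by group
        _ = _ := by rw [s.xc _ (conj_mem_of_mem_normalizer' hg hd)]; group⟩

omit [Finite G] in
theorem conj {d : G} (hd : d ∈ D) (h : d * a ≠ a * d) : d * a = x * (a * d) := by
  have h1 := conj_mem_of_mem_normalizer (norm_O s.n hd) s.a_mem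
  rw [s.W, s.ia.mem_iff] at h1
  rcases h1 with h1 | h1 | h1 | h1
  · exact absurd (by simpa using h1) s.ia.nb
  · rw [mul_inv_eq_iff_eq_mul, ← s.xc d hd, mul_right_inj] at h1
    exact absurd h1.symm s.ia.ne
  · exact absurd (mul_inv_eq_iff_eq_mul.mp h1) h
  · rw [← mul_assoc, ← h1, inv_mul_cancel_right]

omit [Finite G] in
/-- Non-commuting four-groups have the same central point. -/
theorem eq_of_ne (t : HW K' D y b) (h : a * b ≠ b * a) : y = x := by
  have h1 := t.conj s.aD h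
  rw [s.conj t.aD h.symm, ← mul_assoc, eq_comm, mul_eq_right] at h1
  rw [eq_inv_of_mul_eq_one_left h1, inv_eq_of_sq s.ia.sa]

theorem comm_cent {e d : G} (hd : d ∈ D) (he : e ∈ D)
    (h : K ≤ centralizer {e} ∨ K ≤ centralizer {e * x}) :
    K ≤ centralizer {d * e * d⁻¹ * e⁻¹} := by
  have key : ∀ f, K ≤ centralizer {f} → K ≤ centralizer {d * f * d⁻¹ * f⁻¹} := fun f hf =>
    mem_centralizer_iff_le.1 (mul_mem (conj_mem_of_le_normalizer (le_normalizer_centralizer s.n) hd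
      (mem_centralizer_iff_le.2 hf)) (inv_mem (mem_centralizer_iff_le.2 hf)))
  rcases h with h | h
  · exact key e h
  · have := key _ h
    rwa [show d * (e * x) * d⁻¹ * (e * x)⁻¹ = d * e * (x * d⁻¹) * x⁻¹ * e⁻¹ by group,
      ← s.xc _ (inv_mem hd), ← mul_assoc, mul_inv_cancel_right] at this

variable (t : HW K' D x b) (hab : a * b ≠ b * a)
include t hab

theorem nsolv (hD : IsPGroup 2 D) : ¬ Group.IsSolvable ↥(K ⊔ K') := fun hs => by
  have key : ∀ {K K' : Subgroup G} {a b : G}, HW K D x a → HW K' D x b → a * b ≠ b * a →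
      K ≤ ⁅K, pCoreOf 2 K'⁆ := fun s t hab =>
    (s.k.c3.commutator_eq (s.n t.aD) (fun e => hab (s.k.c3.centralizes_wOf
      (H93.NG.A4_wOf s.k ▸ s.k.card) e (isPGroup_zpowers_of_mem hD t.aD) _
      (H93.NG.A4_wOf s.k ▸ s.a_mem))) (t.O_le.trans s.n) t.a_mem).ge
  have := (H93.NG.level hs le_sup_left le_sup_right ((NG.O_le K).trans (le_ncl _ _))
    ((NG.O_le K').trans (le_ncl _ _)) (key s t hab) (key t s hab.symm)).1
  exact s.ia.na (mem_bot.mp (this ▸ NG.O_le K s.x_mem))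

theorem cent_ab {d : G} (hd : d ∈ D) (ha : d * a = a * d) (hb : d * b = b * d) :
    K ≤ centralizer {d} ∨ K ≤ centralizer {d * x} := by
  have ab := s.conj t.aD hab.symm
  have haK := NG.O_le K s.a_mem
  obtain ⟨w, hw, h | h⟩ := H93.NG.side s.k s.n s.ia s.W t.aD ab s.xc hd
  · have h1 := H93.NG.side_comm s.k s.n t.n t.ia s.W t.W t.aD ab s.ia.comm
      (mul_mem hd (four_le s.xD s.aD hw)) h
    rw [mul_assoc, ← mul_assoc b, ← hb, mul_assoc, mul_right_inj] at h1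
    rcases (s.ia.mem_iff _).1 hw with rfl | rfl | rfl | rfl
    · exact .inl (by simpa using h)
    · exact .inr h
    · exact absurd h1 hab
    · rw [← mul_assoc, ← t.ia.comm, mul_assoc, mul_assoc, mul_right_inj] at h1
      exact absurd h1 hab
  · have h1 := mem_c1.1 (h haK)
    rw [← mul_assoc, ← mul_assoc, ← ha, mul_assoc (d * b),
      ← H93.NG.A4_comm s.k s.a_mem (s.W.ge hw), ← mul_assoc, mul_left_inj, mul_assoc, mul_assoc,
      mul_right_inj] at h1
    exact absurd h1 hab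

theorem not_both (u : HW K'' D x c) {d : G} (hd : d ∈ D) (hdc : d * c ≠ c * d)
    (ha : c * a = a * c) (hb : c * b = b * c) : False := by
  have := s.comm_cent hd u.aD (s.cent_ab t hab u.aD ha hb)
  rw [u.conj hd hdc, show x * (c * d) * d⁻¹ * c⁻¹ = x by group] at this
  exact s.not_cent this

theorem either (hc : c ∈ D) (h2 : c * c = 1) : c * a = a * c ∨ c * b = b * c := by
  by_contra h
  push Not at h
  have xx : ∀ g, x * (x * g) = g := fun g => by rw [← mul_assoc, s.ia.sa, one_mul]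
  have xm : ∀ d ∈ D, ∀ g, d * (x * g) = x * (d * g) := fun d hd g => by
    rw [← mul_assoc, s.xc d hd, mul_assoc]
  have ab := s.conj t.aD hab.symm
  have ac : a * c = x * (c * a) := by rw [s.conj hc h.1, xx]
  have bc : b * c = x * (c * b) := by rw [t.conj hc h.2, xx]
  have ab' : ∀ g, b * (a * g) = x * (a * (b * g)) := fun g => by
    rw [← mul_assoc, ab]; simp only [mul_assoc]
  have ac' : ∀ g, a * (c * g) = x * (c * (a * g)) := fun g => by
    rw [← mul_assoc, ac]; simp only [mul_assoc]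
  have bc' : ∀ g, b * (c * g) = x * (c * (b * g)) := fun g => by
    rw [← mul_assoc, bc]; simp only [mul_assoc]
  have cc : ∀ g, c * (c * g) = g := fun g => by rw [← mul_assoc, h2, one_mul]
  have he : c * (a * b) ∈ D := mul_mem hc (mul_mem s.aD t.aD)
  have e1 : c * (a * b) * (c * (a * b)) = x := by
    simp only [mul_assoc, ab', ac', bc', xm _ hc, xm _ s.aD, xm _ t.aD, xx, cc, t.ia.sb,
      s.ia.sb, h2, mul_one]
  have h1 := s.cent_ab t hab he
    (by simp only [mul_assoc, ab, ac', xm _ hc, xm _ s.aD])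
    (by simp only [mul_assoc, ab', bc', xm _ hc, xx])
  refine s.not_cent (mem_centralizer_iff_le.1 ?_)
  rcases h1 with h1 | h1
  · exact e1 ▸ mul_mem (mem_centralizer_iff_le.2 h1) (mem_centralizer_iff_le.2 h1)
  · have := mul_mem (mem_centralizer_iff_le.2 h1) (mem_centralizer_iff_le.2 h1)
    rwa [mul_assoc, ← mul_assoc x, ← s.xc _ he, mul_assoc _ x, s.ia.sa, mul_one, e1] at this

theorem other (u : HW K'' D y c) {d : G} (hd : d ∈ D) (hdc : d * c ≠ c * d) (hy : y ≠ x) :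
    K ≤ centralizer {y} := by
  have := s.comm_cent hd u.aD (s.cent_ab t hab u.aD
    (by_contra fun e => hy (u.eq_of_ne s e).symm) (by_contra fun e => hy (u.eq_of_ne t e).symm))
  rwa [u.conj hd hdc, show y * (c * d) * d⁻¹ * c⁻¹ = y by group] at this

end HW

/-- A non-commuting conjugate under `H` gives a non-commuting conjugate under a Sylow
2-subgroup. -/
theorem blkw {T H D K : Subgroup G} (h : HA T) (hT : T ≤ H) (hD : D ≤ T)
    (hH : H ≤ normalizer (D : Set G)) (hK : A4 K) (n : D ≤ normalizer (K : Set G))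
    (w : pCoreOf 2 K ≤ D) {g : G} (hg : g ∈ H) (hne : ⁅pCoreOf 2 K, cj g (pCoreOf 2 K)⁆ ≠ ⊥) :
    ∃ t ∈ T, ⁅pCoreOf 2 K, cj t (pCoreOf 2 K)⁆ ≠ ⊥ := by
  have e := cj_eq_of_mem_normalizer (hH hg)
  have hDp := h.syl.isPGroup.to_le hD
  rw [cj_pCoreOf] at hne
  obtain ⟨x, a, b, s, t, hab⟩ := exists_HW hK (a4_cj hK g) n (e ▸ cj_le_norm n g) w
    (by rw [← cj_pCoreOf, ← e]; exact cj_mono w) hne
  have hd : ∀ k ∈ H, k * b * k⁻¹ ∈ D ∧ k * b * k⁻¹ * (k * a * k⁻¹) ≠ k * a * k⁻¹ * (k * b * k⁻¹) :=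
    fun k hk => ⟨conj_mem_of_mem_normalizer (hH hk) t.aD, fun e => hab (H93.NG.conj_comm_cancel e).symm⟩
  have hx : ∀ k ∈ H, ∃ u ∈ T, k * x * k⁻¹ = u * x * u⁻¹ := by
    set E := closure {y | ∃ k ∈ H, y = k * x * k⁻¹ ∧ ∀ u ∈ T, y ≠ u * x * u⁻¹}
    have h1 : E ≤ D := (closure_le _).2 (by
      rintro _ ⟨k, hk, rfl, -⟩
      exact conj_mem_of_mem_normalizer (hH hk) s.xD)
    have h2 : E ≤ centralizer ((K ⊔ cj g K : Subgroup G) : Set G) := (closure_le _).2 (by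
      rintro _ ⟨k, hk, rfl, h2⟩
      have h3 : k * x * k⁻¹ ≠ x := by simpa using h2 1 (one_mem _)
      exact mem_centralizer_iff_le.2 (sup_le
        (s.other t hab (s.cj (hH hk)) (hd k hk).1 (hd k hk).2 h3)
        (t.other s hab.symm (s.cj (hH hk)) (hd k hk).1 (hd k hk).2 h3)))
    have h3 : T ≤ normalizer (E : Set G) := le_normalizer_iff'.2 fun u hu y hy =>
      map_conj_le_iff.1 ((map_le_iff_le_comap).2 ((closure_le _).2 (by
        rintro _ ⟨k, hk, rfl, h2⟩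
        refine subset_closure ⟨u * k, mul_mem (hT hu) hk, by simp [mul_assoc], fun v hv e => ?_⟩
        refine h2 (u⁻¹ * v) (mul_mem (inv_mem hu) hv) ?_
        calc _ = u⁻¹ * (u * (k * x * k⁻¹) * u⁻¹) * u := by group
          _ = _ := by rw [show u * (k * x * k⁻¹) * u⁻¹ = v * x * v⁻¹ from e]; group))) y hy
    have h0 : E = ⊥ := by
      by_contra e
      exact s.nsolv t hab hDp (solv_of_le ((le_centralizer_comm.1 h2).trans
        (centralizer_le_normalizer' _)) (h.solv _ (loc_of (hDp.to_le h1) e) h3))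
    intro k hk
    by_contra hc
    push Not at hc
    have : k * x * k⁻¹ ∈ E := subset_closure ⟨k, hk, rfl, hc⟩
    rw [h0, mem_bot, conj_eq_one_iff] at this
    exact s.ia.na this
  -- commuting is an equivalence relation with two classes
  have tri : ∀ k ∈ H, ∀ l ∈ H, ∀ m ∈ H, k * x * k⁻¹ = x → l * x * l⁻¹ = x → m * x * m⁻¹ = x →
      k * a * k⁻¹ * (l * a * l⁻¹) ≠ l * a * l⁻¹ * (k * a * k⁻¹) →
      (m * a * m⁻¹ * (k * a * k⁻¹) = k * a * k⁻¹ * (m * a * m⁻¹) ↔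
        m * a * m⁻¹ * (l * a * l⁻¹) ≠ l * a * l⁻¹ * (m * a * m⁻¹)) := by
    intro k hk l hl m hm ek el em hkl
    have sk := s.cj (hH hk)
    have sl := s.cj (hH hl)
    have sm := s.cj (hH hm)
    rw [ek] at sk; rw [el] at sl; rw [em] at sm
    exact ⟨fun h1 h2 => sk.not_both sl hkl sm (hd m hm).1 (hd m hm).2 h1 h2,
      (sk.either sl hkl sm.aD sm.ia.sb).resolve_right⟩
  have hmul : ∀ k ∈ H, ∀ l ∈ H, k * x * k⁻¹ = x → l * x * l⁻¹ = x →
      (k * l * a * (k * l)⁻¹ * a = a * (k * l * a * (k * l)⁻¹) ↔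
        (k * a * k⁻¹ * a = a * (k * a * k⁻¹) ↔ l * a * l⁻¹ * a = a * (l * a * l⁻¹))) := by
    intro k hk l hl ek el
    have ekl : k * l * x * (k * l)⁻¹ = x := by
      calc _ = k * (l * x * l⁻¹) * k⁻¹ := by group
        _ = x := by rw [el, ek]
    have e1 : l * a * l⁻¹ * a = a * (l * a * l⁻¹) ↔ k * l * a * (k * l)⁻¹ * (k * a * k⁻¹) =
        k * a * k⁻¹ * (k * l * a * (k * l)⁻¹) := by
      rw [show k * l * a * (k * l)⁻¹ = k * (l * a * l⁻¹) * k⁻¹ by group]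
      exact ⟨fun h => H93.NG.conj_comm h k, H93.NG.conj_comm_cancel⟩
    have t1 := tri _ (mul_mem hk hl) k hk 1 (one_mem _) ekl ek (by simp)
    have t2 := tri k hk 1 (one_mem _) _ (mul_mem hk hl) ek (by simp) ekl
    have t3 := tri _ (mul_mem hk hl) 1 (one_mem _) k hk ekl (by simp) ek
    simp only [one_mul, inv_one, mul_one] at t1 t2 t3
    rw [e1]
    generalize k * l * a * (k * l)⁻¹ = c₁ at *
    generalize k * a * k⁻¹ = c₂ at *
    rw [eq_comm (a := a * c₁), ne_comm (a := a * c₂)] at t1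
    rw [eq_comm (a := c₂ * c₁)] at t3
    tauto
  have hgx : g * x * g⁻¹ = x := by
    have h1 := (s.cj (hH hg)).x_mem
    have h2 := (s.cj (hH hg)).xc a s.aD
    rw [t.W, t.ia.mem_iff] at h1
    rcases h1 with h1 | h1 | h1 | h1
    · exact absurd (conj_eq_one_iff.1 h1) s.ia.na
    · exact h1
    · exact absurd (h1 ▸ h2) hab
    · rw [h1, ← mul_assoc, ← s.ia.comm, mul_assoc, mul_assoc, mul_right_inj] at h2
      exact absurd h2 hab
  have hga : g * a * g⁻¹ * a ≠ a * (g * a * g⁻¹) := fun h2 => by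
    have h1 := (s.cj (hH hg)).a_mem
    rw [t.W, t.ia.mem_iff] at h1
    rcases h1 with h1 | h1 | h1 | h1
    · exact absurd (conj_eq_one_iff.1 h1) s.ia.nb
    · exact (s.ia.conj g).ne (hgx.trans h1.symm)
    · exact hab (h1 ▸ h2).symm
    · rw [h1, ← mul_assoc, ← s.ia.comm, mul_assoc, mul_assoc, mul_right_inj] at h2
      exact hab h2.symm
  by_contra hc
  push Not at hc
  have hT' : ∀ u ∈ T, u * a * u⁻¹ * a = a * (u * a * u⁻¹) := fun u hu =>
    (commutatorElement_eq_one_iff_mul_comm.1 (mem_bot.1 (hc u hu ▸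
      commutator_mem_commutator s.a_mem (conj_mem_map_conj s.a_mem)))).symm
  have hpow : ∀ m : ℕ, g ^ m * x * (g ^ m)⁻¹ = x ∧
      (g ^ m * a * (g ^ m)⁻¹ * a = a * (g ^ m * a * (g ^ m)⁻¹) ↔ Even m) := fun m => by
    induction m with
    | zero => simp
    | succ m ih =>
      refine ⟨?_, ?_⟩
      · calc _ = g ^ m * (g * x * g⁻¹) * (g ^ m)⁻¹ := by group
          _ = x := by rw [hgx, ih.1]
      · rw [pow_succ, hmul _ (pow_mem hg m) g hg ih.1 hgx, ih.2, Nat.even_add_one]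
        tauto
  obtain ⟨m, j, hm, hj⟩ := H82.exists_odd_pow_orderOf_two_pow g
  obtain ⟨k, hk, hk'⟩ := (h.syl.mono hT le_top).exists_conj_le (zpowers_le.2 (pow_mem hg m))
    (IsPGroup.of_card (by rw [Nat.card_zpowers, hj]))
  obtain ⟨u, hu, hu'⟩ := hx k hk
  have hl : u⁻¹ * k ∈ H := mul_mem (inv_mem (hT hu)) hk
  have el : u⁻¹ * k * x * (u⁻¹ * k)⁻¹ = x := by
    calc _ = u⁻¹ * (k * x * k⁻¹) * u := by group
      _ = x := by rw [hu']; group
  have h1 : u⁻¹ * k * g ^ m * (u⁻¹ * k)⁻¹ ∈ T := by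
    have := mul_mem (mul_mem (inv_mem hu) (hk' (conj_mem_map_conj (mem_zpowers _)))) hu
    rwa [show u⁻¹ * (k * g ^ m * k⁻¹) * u = u⁻¹ * k * g ^ m * (u⁻¹ * k)⁻¹ by group] at this
  generalize u⁻¹ * k = l at hl el h1
  have el' : l⁻¹ * x * l⁻¹⁻¹ = x := by
    conv_lhs => rw [← el]
    group
  have h2 := hmul _ (mul_mem hl (pow_mem hg m)) _ (inv_mem hl) (by
    calc _ = l * (g ^ m * x * (g ^ m)⁻¹) * l⁻¹ := by group
      _ = x := by rw [(hpow m).1, el]) el'
  have h3 := hmul l hl _ (pow_mem hg m) el (hpow m).1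
  have h4 := hmul l hl _ (inv_mem hl) el el'
  have h5 := hT' _ h1
  have h6 := Nat.not_even_iff_odd.2 hm
  rw [(hpow m).2] at h3
  simp only [mul_inv_cancel, one_mul, inv_one, mul_one, true_iff] at h4
  tauto

/-- The block lemma is contradictory inside a solvable overgroup of `T`. -/
theorem blk_false {T P L S M₀ H : Subgroup G} (h : HA T) (hP : Group.IsSolvable P) (hTP : T ≤ P)
    (hL : L ≤ P) (ch : Ch2 L) (hS : SylIn 2 S L) (hST : S ≤ T) (hSM : S ≤ M₀) (hLM : ¬ L ≤ M₀)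
    (hC : L ⊓ centralizer (om S : Set G) ≤ M₀) (hTH : T ≤ H) (hH : H ≤ normalizer (Bm S : Set G))
    (hX : ∀ X : Subgroup G, X ≤ Bm S → X ≠ ⊥ → H ≤ normalizer (X : Set G) →
      L ⊓ normalizer (X : Set G) ≤ M₀) : False := by
  obtain ⟨K, hKL, -, hK, n, w, g, hg, hne⟩ :=
    H82.NG.blk (solv_of_le hL hP) ch hS hSM hLM hC hH hX
  have hD := (Bm_le S).trans hST
  obtain ⟨t, ht, hne⟩ := blkw h hTH hD hH hK n w hg hne
  have e := cj_eq_of_mem_normalizer (hH (hTH ht))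
  rw [cj_pCoreOf] at hne
  obtain ⟨x, a, b, s, s', hab⟩ := exists_HW hK (a4_cj hK t) n (e ▸ cj_le_norm n t) w
    (by rw [← cj_pCoreOf, ← e]; exact cj_mono w) hne
  exact s.nsolv s' hab (h.syl.isPGroup.to_le hD) (solv_of_le (sup_le (hKL.trans hL)
    ((cj_mono (hKL.trans hL)).trans (map_conj_eq_of_mem (hTP ht)).le)) hP)

section

variable {T B₀ G₁ G₂ U₁ U₂ : Subgroup G} (h : HA T) (p : Pr B₀ G₁ G₂) (hT : T ≤ B₀)
include h p hT

theorem O_le_T : pCoreOf 2 B₀ ≤ T := pCoreOf_le_of_sylIn (h.syl.mono hT le_top)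

theorem pr_not_syl {L : Subgroup G} (hL : L ≤ G₁) (hLB : ¬ L ≤ B₀) (ch : Ch2 L) :
    ¬ SylIn 2 (pCoreOf 2 G₂) L := fun hS => by
  have hp := pg_O G₂
  have hn := le_normalizer_pCoreOf 2 G₂
  have hQ := O_le_of_cov p.s2
  refine blk_false h p.s1.solv (hT.trans p.s1.cov.le) hL ch hS (hQ.trans (O_le_T h p hT))
    (hQ.trans (O_le _)) hLB ?_ (hT.trans p.s2.cov.le) (norm_Bm hn) fun X hX h1 hXn => ?_
  · exact H24.NG.pr_le p (hp.to_le (om_le _)) (omegaOne_ctr_ne_bot hp (H24.NG.sd_Q_ne_bot p.s2))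
      (norm_om hn) (inf_le_left.trans hL) (inf_le_right.trans (centralizer_le_normalizer' _))
  · exact H24.NG.pr_le p (hp.to_le (hX.trans (Bm_le _))) h1 hXn (inf_le_left.trans hL) inf_le_right

theorem pr_O : ¬ pCoreOf 2 B₀ ≤ pCoreOf 2 G₁ := by
  intro hle
  have e : pCoreOf 2 G₁ = pCoreOf 2 B₀ := le_antisymm (O_le_of_cov p.s1) hle
  have hne : ¬ pCoreOf 2 B₀ ≤ pCoreOf 2 G₂ := fun h2 => H24.NG.sd_Q_ne_bot p.s1
    (p.free _ (pg_O _) (le_normalizer_pCoreOf _ _) (by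
      rw [e, le_antisymm h2 (O_le_of_cov p.s2)]; exact le_normalizer_pCoreOf _ _))
  have k := H24.NG.sd_ks p.s2 hne
  have hL : Kof B₀ G₂ ⊔ pCoreOf 2 B₀ ≤ G₂ := sup_le k.le (H24.NG.sd_O_le p.s2)
  exact pr_not_syl h (pr_symm p) hT hL (fun h => k.not_le (le_sup_left.trans h))
    (ch2_of_le p.s2.ch ((O_le_of_cov p.s2).trans le_sup_right) hL) (e ▸ k.sylO)

theorem pr_ks : KS B₀ G₁ (Kof B₀ G₁) := H24.NG.sd_ks p.s1 (pr_O h p hT)

theorem pr_R : ¬ pCoreOf 2 (Kof B₀ G₁) ≤ pCoreOf 2 G₂ := by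
  intro hle
  have k := pr_ks h p hT
  have hQ : pCoreOf 2 G₂ ≤ G₁ := (O_le_of_cov p.s2).trans (H24.NG.sd_O_le p.s1)
  have hL : Kof B₀ G₁ ⊔ pCoreOf 2 G₂ ≤ G₁ := sup_le k.le hQ
  refine pr_not_syl h p hT hL (fun h => k.not_le (le_sup_left.trans h))
    (ch2_normal p.s1.ch hL (H24.NG.sd_le_normalizer p.s1 k.le k.not_le
      (le_sup_left.trans le_normalizer) (le_normalizer_sup (p.s1.cov.le.trans k.norm)
        (p.s2.cov.le.trans (le_normalizer_pCoreOf _ _))))) ⟨le_sup_right, pg_O _, ?_⟩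
  intro U hU hUp hOU
  refine le_antisymm (fun u hu => ?_) hOU
  obtain ⟨x, hx, o, ho, rfl⟩ := (H53.mem_sup_of_le_normalizer (hQ.trans k.norm)).1 (hU hu)
  have hkU : x ∈ U := by simpa using U.mul_mem hu (U.inv_mem (hOU ho))
  exact mul_mem (hle (H24.NG.ks_mem_R k hUp hkU hx)) ho

theorem om_le_om_Q : om T ≤ om (pCoreOf 2 G₁) := by
  have h1 := (om_le_c T).trans (centralizer_anti ((O_le_of_cov p.s1).trans (O_le_T h p hT)))
  exact le_om (ea_om _)
    ((le_inf ((om_le _).trans (hT.trans p.s1.cov.le)) h1).trans p.s1.ch) h1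

variable (hC : centralizer (om T : Set G) ≤ B₀)
include hC

theorem pr_nc : ¬ Kof B₀ G₁ ≤ centralizer (om (pCoreOf 2 G₁) : Set G) := fun e =>
  (pr_ks h p hT).not_le (e.trans ((centralizer_anti (om_le_om_Q h p hT)).trans hC))

theorem pr_SU : ∃ U, NG.SU B₀ G₁ U := exists_SU p.s1 (pr_ks h p hT) (pr_nc h p hT hC)

theorem pr_JJ : ¬ JJ (pCoreOf 2 B₀) ≤ pCoreOf 2 G₁ := fun hJ => by
  obtain ⟨U, u⟩ := pr_SU h p hT hC
  have k := pr_ks h (pr_symm p) hT
  have hQ := O_le_of_cov p.s1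
  have hB : Bm (pCoreOf 2 G₁) = Bm (pCoreOf 2 B₀) := H82.NG.Bm_eq_of_le (fun y hy =>
    u.mem_Q (Bm_le _ hy) (Bm_le_c u.ea (u.le_Q.trans hQ)
      (le_centralizer_comm.1 (hJ.trans u.Q_le)) hy)) hQ
  have hn : G₁ ≤ normalizer (Bm (pCoreOf 2 B₀) : Set G) :=
    hB ▸ norm_Bm (le_normalizer_pCoreOf 2 G₁)
  have hL : Kof B₀ G₂ ⊔ pCoreOf 2 B₀ ≤ G₂ := sup_le k.le ((O_le _).trans p.s2.cov.le)
  have h1 := (om_le_c T).trans (centralizer_anti (O_le_T h p hT))
  refine blk_false h p.s2.solv (hT.trans p.s2.cov.le) hL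
    (ch2_of_le p.s2.ch ((O_le_of_cov p.s2).trans le_sup_right) hL) k.sylO (O_le_T h p hT) (O_le _)
    (fun e => k.not_le (le_sup_left.trans e))
    (inf_le_right.trans ((centralizer_anti (le_om (ea_om _)
      ((om_le_om_Q h p hT).trans ((om_le _).trans hQ)) h1)).trans hC))
    (hT.trans p.s1.cov.le) hn fun X hX h1 hXn => ?_
  exact H24.NG.pr_le (pr_symm p) ((pg_O B₀).to_le (hX.trans (Bm_le _))) h1 hXn
    (inf_le_left.trans hL) inf_le_right

end

end Cfsg.Agent.H72.QA
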