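import Cfsg.Agent.H72.QA1

/-!
The pair over `C(Ω₁ Z(T))`: `B₀ = T`.
-/

set_option autoImplicit false

namespace Cfsg.Agent.H72.QA

open Cfsg Cfsg.Agent.H98 Cfsg.Agent.H84 Cfsg.Agent.H71.NG Cfsg.Agent.H72.NG Subgroup
open scoped commutatorElement

variable {G : Type*} [Group G] [Finite G]

theorem not_three {B₀ G₁ K N W₁ W₂ W₃ : Subgroup G} (hr : PRankLE 3 2 N) (hN : K ≤ N)
    (k : KS B₀ G₁ K) (phi : K ⊓ B₀ = pCoreOf 2 K) (he : ∀ x ∈ K, x ^ 3 ∈ pCoreOf 2 K)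
    (o₁ : pCoreOf 2 K ≤ centralizer (W₁ : Set G)) (o₂ : pCoreOf 2 K ≤ centralizer (W₂ : Set G))
    (o₃ : pCoreOf 2 K ≤ centralizer (W₃ : Set G)) {x₁ x₂ x₃ : G} (h₁ : x₁ ∈ K) (h₂ : x₂ ∈ K)
    (h₃ : x₃ ∈ K) (n₁ : x₁ ∉ centralizer (W₁ : Set G)) (n₂ : x₂ ∉ centralizer (W₂ : Set G))
    (n₃ : x₃ ∉ centralizer (W₃ : Set G)) (c₂ : x₂ ∈ centralizer (W₁ : Set G))
    (c₃ : x₃ ∈ centralizer (W₁ : Set G)) (c₃' : x₃ ∈ centralizer (W₂ : Set G)) : False := by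
  haveI : Fact (Nat.Prime 3) := ⟨Nat.prime_three⟩
  obtain ⟨P, ho, hP⟩ := H24.NG.ks_exists_odd k
  have hPK : P ≤ K := le_sup_right.trans hP.le
  have h1 : ∀ y ∈ P, y ∈ pCoreOf 2 K → y = 1 := fun y hy h =>
    eq_one_of_odd (pg_O K) h (ho.of_dvd_nat (orderOf_dvd_natCard P hy))
  have hc : ∀ y ∈ P, y ∈ centralizer (P : Set G) := fun y hy z hz =>
    commutatorElement_eq_one_iff_mul_comm.1 (h1 _ (comm_mem_left hz (le_normalizer hy))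
      (phi ▸ k.phi_eq ▸ mem_sup_left (commutator_mem_commutator (hPK hz) (hPK hy))))
  have h3 : ∀ y ∈ P, y ^ 3 = 1 := fun y hy => h1 _ (pow_mem hy 3) (he y (hPK hy))
  have key : ∀ x ∈ K, ∃ y ∈ P, ∀ W : Subgroup G, pCoreOf 2 K ≤ centralizer (W : Set G) →
      (x ∈ centralizer (W : Set G) ↔ y ∈ centralizer (W : Set G)) := fun x hx => by
    obtain ⟨r, hr, y, hy, rfl⟩ := (H53.mem_sup_of_le_normalizer
      (hPK.trans (le_normalizer_pCoreOf 2 K))).1 (hP.ge hx)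
    exact ⟨y, hy, fun W h => mul_mem_cancel_left (h hr)⟩
  obtain ⟨y₁, p₁, e₁⟩ := key x₁ h₁
  obtain ⟨y₂, p₂, e₂⟩ := key x₂ h₂
  obtain ⟨y₃, p₃, e₃⟩ := key x₃ h₃
  have step : ∀ A : Subgroup G, A ≤ P → IsElementaryAbelian 3 A → ∀ y ∈ P, y ∉ A →
      A ⊔ zpowers y ≤ P ∧ IsElementaryAbelian 3 (A ⊔ zpowers y : Subgroup G) ∧
        3 * Nat.card A ≤ Nat.card (A ⊔ zpowers y : Subgroup G) := fun A hA ea y hy hn =>
    ⟨sup_le hA (zpowers_le.2 hy), H81.QT.ea_step ea (h3 y hy) (centralizer_anti hA (hc y hy)) hn⟩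
  obtain ⟨a₃, b₃, d₃⟩ := step ⊥ bot_le ⟨inferInstance, by simp⟩ y₃ p₃ fun e =>
    n₃ ((e₃ _ o₃).2 (mem_bot.1 e ▸ one_mem _))
  obtain ⟨a₂, b₂, d₂⟩ := step _ a₃ b₃ y₂ p₂ fun e =>
    n₂ ((e₂ _ o₂).2 (sup_le bot_le (zpowers_le.2 ((e₃ _ o₂).1 c₃')) e))
  obtain ⟨a₁, b₁, d₁⟩ := step _ a₂ b₂ y₁ p₁ fun e =>
    n₁ ((e₁ _ o₁).2 (sup_le (sup_le bot_le (zpowers_le.2 ((e₃ _ o₁).1 c₃)))
      (zpowers_le.2 ((e₂ _ o₁).1 c₂)) e))
  have := H81.QT.rank_sub_iff.1 hr _ (a₁.trans (hPK.trans hN)) b₁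
  rw [card_bot] at d₃
  omega

theorem ks_cube {B₀ G₁ K K' : Subgroup G} (k : KS B₀ G₁ K) (c : C3 K') (h : K' ≤ K) :
    ∀ x ∈ K, x ^ 3 ∈ pCoreOf 2 K := by
  obtain ⟨p, hp, -, he⟩ := k.expo
  obtain ⟨ρ, hρ, -, h3⟩ := c.exists_three
  have h1 : ρ ^ p = 1 := eq_one_of_odd (pg_O K) (he ρ (h hρ))
    ((h3 ▸ by decide : Odd (orderOf ρ)).of_dvd_nat (orderOf_pow_dvd p))
  have := orderOf_dvd_of_pow_eq_one h1
  rw [h3, Nat.prime_dvd_prime_iff_eq Nat.prime_three hp] at this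
  exact this ▸ he

section

variable {T B₀ G₁ U : Subgroup G} (h : HA T) (u : NG.SU B₀ G₁ U) (hT : T ≤ B₀)
  (hB : Bm T ≤ pCoreOf 2 B₀) (hJ : ¬ JJ (pCoreOf 2 B₀) ≤ pCoreOf 2 G₁)
include h u hT hB

theorem dc_le_K {K : Subgroup G} (d : DC (Bm T) K) (hK : K ≤ G₁) : K ≤ Kof B₀ G₁ :=
  d.res.ge.trans (resOf_mono (H82.NG.dc_le_of_JJ d (hK.trans (norm_ncl _ _))
    ((JJ_le _).trans (hB.trans (le_ncl _ _)))))

theorem norm_Bm_T : B₀ ≤ normalizer (Bm T : Set G) := by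
  rw [← H82.NG.Bm_eq_of_le hB (pCoreOf_le_of_sylIn (h.syl.mono hT le_top))]
  exact norm_Bm (le_normalizer_pCoreOf 2 B₀)

include hJ

/-- There are at most two lines. -/
theorem dc_two {K₁ K₂ K₃ : Subgroup G} (c : C3 K₁) (d₁ : DC (Bm T) K₁) (d₂ : DC (Bm T) K₂)
    (d₃ : DC (Bm T) K₃) (l₁ : K₁ ≤ G₁) (l₂ : K₂ ≤ G₁) (l₃ : K₃ ≤ G₁) :
    lineOf (Bm T) K₁ = lineOf (Bm T) K₂ ∨ lineOf (Bm T) K₁ = lineOf (Bm T) K₃ ∨
      lineOf (Bm T) K₂ = lineOf (Bm T) K₃ := by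
  by_contra hc
  push Not at hc
  have hS := h.syl.mono (hT.trans u.s.cov.le) le_top
  have di := fun {K K'} d l d' l' => H82.NG.dc_dich (K := K) (K' := K') u.s.solv u.s.ch hS d l d' l'
  have ho : ∀ {K}, DC (Bm T) K → K ≤ G₁ →
      pCoreOf 2 (Kof B₀ G₁) ≤ centralizer (lineOf (Bm T) K : Set G) := fun d l =>
    u.OK_le.trans ((le_c_om _).trans (centralizer_anti (H82.NG.dc_le_om u.s.ch hS d l)))
  obtain ⟨x₁, h₁, -, -, f₁⟩ := H82.NG.dc_exists_gen d₁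
  obtain ⟨x₂, h₂, -, -, f₂⟩ := H82.NG.dc_exists_gen d₂
  obtain ⟨x₃, h₃, -, -, f₃⟩ := H82.NG.dc_exists_gen d₃
  exact not_three (h.rank _ (loc_of (pg_O G₁) (H24.NG.sd_Q_ne_bot u.s)))
    (u.k.le.trans (le_normalizer_pCoreOf 2 G₁)) u.k (u.phi hJ)
    (ks_cube u.k c (dc_le_K h u hT hB d₁ l₁)) (ho d₁ l₁) (ho d₂ l₂) (ho d₃ l₃)
    (dc_le_K h u hT hB d₁ l₁ h₁) (dc_le_K h u hT hB d₂ l₂ h₂) (dc_le_K h u hT hB d₃ l₃ h₃)
    f₁.not_mem f₂.not_mem f₃.not_mem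
    (((di d₁ l₁ d₂ l₂).resolve_left hc.1.symm).2.1 h₂)
    (((di d₁ l₁ d₃ l₃).resolve_left hc.2.1.symm).2.1 h₃)
    (((di d₂ l₂ d₃ l₃).resolve_left hc.2.2.symm).2.1 h₃)

omit hJ in
theorem ncl_line {K : Subgroup G} (d : DC (Bm T) K) (l : K ≤ G₁) (m : ¬ K ≤ B₀)
    (w : lineOf (Bm T) K ≤ U) : ncl (lineOf (Bm T) K) B₀ = U := by
  have hS := h.syl.mono (hT.trans u.s.cov.le) le_top
  refine (u.irr _ (ncl_le w (u.s.cov.le.trans u.norm)) (le_norm_of_cov u.s.cov l m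
    (norm_ncl_of fun g hg => ?_) (norm_ncl _ _))).resolve_left
    (ne_bot_of_le (le_ncl _ _) (four_ne_bot d.card))
  obtain ⟨d', e'⟩ := dc_cj' d (norm_Bm_T h u hT hB hg)
  rw [← e']
  rcases H82.NG.dc_dich u.s.solv u.s.ch hS d' ((cj_mono l).trans
    (map_conj_eq_of_mem (u.s.cov.le hg)).le) d l with e | e
  · rw [← e]; exact H82.NG.dc_KW d
  · exact e.2.1.trans (centralizer_le_normalizer' _)

theorem odd_cent_U {y : G} (hy : y ∈ B₀) (ho : Odd (orderOf y)) : y ∈ centralizer (U : Set G) := by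
  obtain ⟨K, l, m, d, c, w⟩ := u.exists_dc (h.syl.mono hT le_top) hB hJ
  have hn := norm_Bm_T h u hT hB
  have key : ∀ y ∈ B₀, Odd (orderOf y) → y ∈ centralizer (lineOf (Bm T) K : Set G) := by
    intro y hy ho
    have l' : ∀ g ∈ B₀, cj g K ≤ G₁ := fun g hg =>
      (cj_mono l).trans (map_conj_eq_of_mem (u.s.cov.le hg)).le
    obtain ⟨d₁, e₁⟩ := dc_cj' d (hn hy)
    obtain ⟨d₂, e₂⟩ := dc_cj' d (hn (inv_mem hy))
    have h1 : y ∈ normalizer (lineOf (Bm T) K : Set G) := by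
      rcases dc_two h u hT hB hJ c d d₁ d₂ l (l' y hy) (l' _ (inv_mem hy)) with e | e | e
      · exact mem_normalizer_of_cj_eq (e₁ ▸ e.symm)
      · exact (inv_mem_iff).1 (mem_normalizer_of_cj_eq (e₂ ▸ e.symm))
      · rw [e₁, e₂] at e
        refine H82.NG.mem_of_odd_of_sq ho (mem_normalizer_of_cj_eq ?_)
        rw [← cj_cj, e, cj_cj, mul_inv_cancel]
        exact map_conj_one _
    obtain ⟨x, hx, x1, hc⟩ := H82.NG.dc_exists_x d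
    obtain ⟨A, hA, a, ha, hac⟩ := H82.NG.dc_exists_A d
    refine four_odd_fix d.card h1 ho (pow_orderOf_eq_one y ▸ one_mem _) hx x1 (conj_eq_iff.1 ?_)
    by_contra e
    have h2 := conj_mem_of_mem_normalizer (le_normalizer_centralizer le_rfl (hn hy)) hc
    exact hac (four_fix_two d.card (conj_mem_of_mem_normalizer h1 hx) hx (by simpa using x1) x1 e
      (h2 a (hA.1 ha)) (hc a (hA.1 ha)))
  rw [← ncl_line h u hT hB d l m w]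
  refine le_centralizer_comm.1 (ncl_le_iff.2 fun g hg => le_centralizer_comm.1 (zpowers_le.2 ?_))
    (mem_zpowers y)
  rw [← map_conj_centralizer]
  refine mem_map_conj.2 (key _ (mul_mem (mul_mem (inv_mem hg) hy) hg) ?_)
  rwa [show g⁻¹ * y * g = g⁻¹ * y * g⁻¹⁻¹ by rw [inv_inv], H82.NG.orderOf_conj']

end

theorem pr_eq {T B₀ G₁ G₂ : Subgroup G} (h : HA T) (p : Pr B₀ G₁ G₂)
    (hC : centralizer (om T : Set G) ≤ B₀) : B₀ = T := by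
  have hT := (le_c_om T).trans hC
  have hS := h.syl.mono hT le_top
  obtain ⟨U₁, u₁⟩ := pr_SU h p hT hC
  obtain ⟨U₂, u₂⟩ := pr_SU h (pr_symm p) hT hC
  have j₁ := pr_JJ h p hT hC
  have j₂ := pr_JJ h (pr_symm p) hT hC
  obtain ⟨X₁, n₁, c₁, o₁⟩ := u₁.exists_X j₁
  obtain ⟨X₂, n₂, c₂, o₂⟩ := u₂.exists_X j₂
  have hO : Bm T ≤ pCoreOf 2 B₀ := le_trans
    (le_inf (le_inf ((Bm_le T).trans hT) (c₁ T hS)) (c₂ T hS))
    (le_pCoreOf (inf_le_left.trans inf_le_left) (inf_le_normalizer_inf (inf_le_normalizer_inf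
      le_normalizer (le_normalizer_centralizer n₁)) (le_normalizer_centralizer n₂))
      (pg_of_odd fun y hy ho =>
        pr_odd p u₁ u₂ hy.1.1 ho (o₁ y hy.1.1 ho hy.1.2) (o₂ y hy.1.1 ho hy.2)))
  exact hS.eq_of_le le_rfl (pg_of_odd fun y hy ho => pr_odd p u₁ u₂ hy ho
    (odd_cent_U h u₁ hT hO j₁ hy ho) (odd_cent_U h u₂ hT hO j₂ hy ho)) hT

/-- The conclusion of the first step. -/
theorem HA.exists_pr_T {T M₁ M₂ : Subgroup G} (h : HA T)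
    (h₁ : M₁ ∈ maxTwoLocalsContaining (centralizer (om T : Set G)))
    (h₂ : M₂ ∈ maxTwoLocalsContaining (centralizer (om T : Set G))) (hne : M₁ ≠ M₂) :
    centralizer (om T : Set G) = T ∧ M₁ ⊓ M₂ = T ∧ ∃ G₁ G₂, Pr T G₁ G₂ := by
  obtain ⟨B₀, G₁, G₂, p, hB⟩ := h.exists_pr (le_c_om T) h₁ h₂ hne
  have hC := le_inf h₁.2 h₂.2
  obtain rfl := pr_eq h p (hC.trans hB)
  exact ⟨le_antisymm (hC.trans hB) (le_c_om _), le_antisymm hB ((le_c_om _).trans hC), _, _, p⟩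

end Cfsg.Agent.H72.QA
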