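import Cfsg.Agent.H72.QA2
import Cfsg.Agent.H71.QADefs

/-!
The pair over `T` is an edge.
-/

set_option autoImplicit false

namespace Cfsg.Agent.H72.QA

open Cfsg Cfsg.Agent.H98 Cfsg.Agent.H84 Cfsg.Agent.H71.NG Cfsg.Agent.H72.NG Subgroup
open Cfsg.Agent.H71.QA (Zv Ln Cp Vx Ed cj_inv_cj cj_cj_inv)
open scoped commutatorElement

variable {G : Type*} [Group G] [Finite G]

theorem Zv_eq {T P : Subgroup G} (hT : SylIn 2 T P) : Zv P = ncl (om T) P := by
  refine le_antisymm (iSup₂_le fun S hS => ?_)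
    (ncl_le (H71.QA.om_le_Zv hT) (le_normalizer.trans (H71.QA.norm_Zv P)))
  obtain ⟨g, hg, rfl⟩ := hT.exists_conj hS
  exact (cj_om g T).ge.trans (cj_le_ncl hg)

/-- A dihedral component is normalized by `O₂(P)`. -/
theorem dc_norm_Q {T P K : Subgroup G} (ch : Ch2 P) (hT : SylIn 2 T P) (d : DC (Bm T) K)
    (l : K ≤ P) : pCoreOf 2 P ≤ normalizer (K : Set G) := by
  have hQT := pCoreOf_le_of_sylIn hT
  have hQB : pCoreOf 2 P ≤ normalizer (Bm T : Set G) := hQT.trans (norm_Bm le_normalizer)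
  have hQW : pCoreOf 2 P ≤ centralizer (lineOf (Bm T) K : Set G) :=
    (le_c_om _).trans (centralizer_anti (H82.NG.dc_le_om ch hT d l))
  have hn := le_normalizer_pCoreOf 2 (K ⊔ Bm T)
  have hQ : pCoreOf 2 P ≤ normalizer (pCoreOf 2 (K ⊔ Bm T) : Set G) := by
    rw [← H82.NG.dc_cent d]
    exact inf_le_normalizer_inf hQB (le_normalizer_centralizer
      (hQW.trans (centralizer_le_normalizer' _)))
  obtain ⟨A, hA, a, ha, hac⟩ := H82.NG.dc_exists_A d
  have haB : a ∈ Bm T := hA.1 ha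
  have h1 : K ≤ H54.relCent (pCoreOf 2 (K ⊔ Bm T)) (pCoreOf 2 P : Subgroup G) :=
    H82.NG.dc_le_of_mem d (H24.NG.le_normalizer_relCent (le_sup_left.trans hn)
      (l.trans (le_normalizer_pCoreOf 2 P))) haB hac
      ⟨hn (mem_sup_right haB), fun q hq => H82.NG.dc_mem_Q d (comm_mem_left haB (hQB hq))
        (hQW (comm_mem_right hq (le_normalizer_pCoreOf 2 P (hT.le (Bm_le T haB)))))⟩
  have h2 : resOf 2 (K ⊔ pCoreOf 2 (K ⊔ Bm T)) = K := by
    rw [resOf_sup (pg_O _) ((H82.NG.dc_QB d).trans d.norm), d.res]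
  rw [← h2]
  refine le_trans (le_normalizer_iff'.2 fun q hq x hx => ?_) (normalizer_le_normalizer_resOf 2 _)
  refine (sup_le ?_ ?_ : _ ≤ cj q⁻¹ (K ⊔ pCoreOf 2 (K ⊔ Bm T))) hx |> fun h => by
    simpa using mem_map_conj.1 h
  · intro k hk
    refine mem_map_conj.2 ?_
    rw [show q⁻¹⁻¹ * k * q⁻¹ = ⁅k, q⁆⁻¹ * k by simp [commutatorElement_def, mul_assoc]]
    exact mul_mem (mem_sup_right (inv_mem ((h1 hk).2 q hq))) (mem_sup_left hk)
  · exact (cj_eq_of_mem_normalizer (inv_mem (hQ hq))).ge.trans (cj_mono le_sup_right)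

/-- The data of one side of the pair over `T`. -/
structure Sy (T P U K : Subgroup G) : Prop where
  h : HA T
  u : NG.SU T P U
  j : ¬ JJ (pCoreOf 2 T) ≤ pCoreOf 2 P
  l : K ≤ P
  m : ¬ K ≤ T
  d : DC (Bm T) K
  c : C3 K
  w : lineOf (Bm T) K ≤ U

theorem HA.O_eq {T : Subgroup G} (h : HA T) : pCoreOf 2 T = T := pCoreOf_eq_self h.syl.isPGroup

theorem HA.Bm_le_O {T : Subgroup G} (h : HA T) : Bm T ≤ pCoreOf 2 T := (Bm_le T).trans h.O_eq.ge

theorem exists_sy {T P P' : Subgroup G} (h : HA T) (p : Pr T P P')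
    (hC : centralizer (om T : Set G) ≤ T) : ∃ U K, Sy T P U K := by
  obtain ⟨U, u⟩ := pr_SU h p le_rfl hC
  have j := pr_JJ h p le_rfl hC
  obtain ⟨K, l, m, d, c, w⟩ := u.exists_dc (h.syl.mono le_rfl le_top) h.Bm_le_O j
  exact ⟨U, K, h, u, j, l, m, d, c, w⟩

namespace Sy

variable {T P U K : Subgroup G} (s : Sy T P U K)
include s

theorem T_le : T ≤ P := s.u.s.cov.le

theorem syl : SylIn 2 T P := s.h.syl.mono s.T_le le_top

theorem cj {t : G} (ht : t ∈ T) : Sy T P U (cj t K) := by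
  obtain ⟨d, e⟩ := dc_cj' s.d (norm_Bm le_normalizer ht)
  exact ⟨s.h, s.u, s.j, cj_le_of s.l (le_normalizer (s.T_le ht)), fun h => s.m
    ((cj_inv_cj t K).ge.trans (cj_le_of h (le_normalizer (inv_mem ht)))), d, s.c.cj t,
    e ▸ cj_le_of s.w (s.u.norm (s.T_le ht))⟩

theorem cj_line {t : G} (ht : t ∈ T) :
    lineOf (Bm T) (H84.cj t K) = H84.cj t (lineOf (Bm T) K) :=
  (dc_cj' s.d (norm_Bm le_normalizer ht)).2

theorem res : resOf 2 P = Kof T P := by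
  conv_lhs => rw [← s.u.k.gen]
  rw [resOf_sup s.syl.isPGroup (s.T_le.trans s.u.k.norm), s.u.k.res]

theorem le_K : K ≤ Kof T P := dc_le_K s.h s.u le_rfl s.h.Bm_le_O s.d s.l

theorem Q_cent : pCoreOf 2 P ≤ centralizer (lineOf (Bm T) K : Set G) :=
  s.u.Q_le.trans (centralizer_anti s.w)

theorem not_cent : ¬ K ≤ centralizer (lineOf (Bm T) K : Set G) := fun e => by
  obtain ⟨k, hk, -, -, f⟩ := H82.NG.dc_exists_gen s.d
  exact f.not_mem (e hk)

theorem dich {K' : Subgroup G} (s' : Sy T P U K') : lineOf (Bm T) K' = lineOf (Bm T) K ∨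
    (lineOf (Bm T) K' ⊓ lineOf (Bm T) K = ⊥ ∧ K' ≤ centralizer (lineOf (Bm T) K : Set G) ∧
      K ≤ centralizer (lineOf (Bm T) K' : Set G)) :=
  H82.NG.dc_dich s.u.s.solv s.u.s.ch s.syl s.d s.l s'.d s'.l

theorem norm_line {K' : Subgroup G} (s' : Sy T P U K') :
    K' ≤ normalizer (lineOf (Bm T) K : Set G) := by
  rcases s.dich s' with e | e
  · rw [← e]; exact H82.NG.dc_KW s'.d
  · exact e.2.1.trans (centralizer_le_normalizer' _)

theorem U_eq : ncl (lineOf (Bm T) K) T = U := ncl_line s.h s.u le_rfl s.h.Bm_le_O s.d s.l s.m s.w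

theorem K_eq : Kof T P = ncl K T := by
  have h1 : ncl K T ≤ Kof T P := ncl_le s.le_K (s.T_le.trans s.u.k.norm)
  have h2 : pCoreOf 2 (Kof T P) ≤ normalizer (ncl K T : Set G) :=
    s.u.OK_le.trans (norm_ncl_of fun t ht => dc_norm_Q s.u.s.ch s.syl (s.cj ht).d (s.cj ht).l)
  have h3 := (s.u.k.irr (ncl K T ⊔ pCoreOf 2 (Kof T P)) (sup_le h1 (O_le _)) le_sup_right
    (le_normalizer_sup (norm_ncl _ _) (norm_O (s.T_le.trans s.u.k.norm)))).resolve_right
    fun e => s.m ((le_ncl _ _).trans (le_sup_left.trans e))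
  refine le_antisymm ?_ h1
  rw [← s.u.k.res, ← h3, resOf_sup (pg_O _) h2]
  exact resOf_le _ _

theorem K_norm : Kof T P ≤ normalizer (lineOf (Bm T) K : Set G) :=
  s.K_eq ▸ ncl_le_iff.2 fun _ ht => s.norm_line (s.cj ht)

theorem U_le_Zv : U ≤ Zv P := by
  obtain ⟨x, hx, x1⟩ := exists_ne_one (inf_centralizer_ne_bot s.syl.isPGroup (ea_pg s.u.ea) s.u.ne
    (s.T_le.trans s.u.norm))
  have h1 : x ∈ om T := le_om (H53.IsElementaryAbelian.of_le' s.u.ea inf_le_left)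
    (inf_le_left.trans (s.u.le_Q.trans (pCoreOf_le_of_sylIn s.syl))) inf_le_right hx
  exact inf_eq_left.1 ((s.u.irr (U ⊓ Zv P) inf_le_left (inf_le_normalizer_inf s.u.norm
    (le_normalizer.trans (H71.QA.norm_Zv P)))).resolve_left
    (ne_bot_of_mem ⟨hx.1, H71.QA.om_le_Zv s.syl h1⟩ x1))

theorem ln : Ln P (lineOf (Bm T) K) :=
  ⟨s.w.trans s.U_le_Zv, s.d.card, s.res ▸ s.K_norm, fun e => s.not_cent (s.le_K.trans (s.res ▸ e))⟩

theorem two : ∃ t ∈ T, ∀ r ∈ T, lineOf (Bm T) (H84.cj r K) = lineOf (Bm T) K ∨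
    lineOf (Bm T) (H84.cj r K) = lineOf (Bm T) (H84.cj t K) := by
  by_cases h : ∃ t ∈ T, lineOf (Bm T) (H84.cj t K) ≠ lineOf (Bm T) K
  · obtain ⟨t, ht, e⟩ := h
    refine ⟨t, ht, fun r hr => ?_⟩
    rcases dc_two s.h s.u le_rfl s.h.Bm_le_O s.j s.c s.d (s.cj ht).d (s.cj hr).d s.l (s.cj ht).l
      (s.cj hr).l with h | h | h
    exacts [absurd h.symm e, .inl h.symm, .inr h.symm]
  · push Not at h
    exact ⟨1, one_mem _, fun r hr => .inl (h r hr)⟩

/-- An element of `O²(P)` centralizing the other lines. -/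
theorem cent_le {y : G} (hy : y ∈ Kof T P) (h : ∀ t ∈ T, lineOf (Bm T) (H84.cj t K) ≠
    lineOf (Bm T) K → y ∈ centralizer (lineOf (Bm T) (H84.cj t K) : Set G))
    {k : G} (hk : k ∈ K) (hc : y * k ∈ centralizer (lineOf (Bm T) K : Set G)) :
    y ∈ K ⊔ pCoreOf 2 (Kof T P) := by
  have h1 : y * k ∈ centralizer (U : Set G) := by
    rw [← s.U_eq]
    refine le_centralizer_comm.1 (ncl_le_iff.2 fun t ht => le_centralizer_comm.1
      (zpowers_le.2 ?_)) (mem_zpowers _)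
    rw [← s.cj_line ht]
    rcases s.dich (s.cj ht) with e | e
    · exact e ▸ hc
    · exact mul_mem (h t ht fun e' => four_ne_bot s.d.card (by simpa [e'] using e.1)) (e.2.2 hk)
  have h2 := mul_mem hy (s.le_K hk)
  have h3 : y * k ∈ pCoreOf 2 (Kof T P) := s.u.phi s.j ▸ ⟨h2, s.u.cent ⟨s.u.k.le h2, h1⟩⟩
  simpa using mul_mem (mem_sup_right h3) (inv_mem (mem_sup_left hk))

theorem cube {y : G} (hy : y ∈ Kof T P) : y ^ 3 ∈ centralizer (lineOf (Bm T) K : Set G) :=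
  s.Q_cent (s.u.OK_le (ks_cube s.u.k s.c s.le_K y hy))

theorem le_of_cent {X : Subgroup G} (hX : X ≤ P) (h : ∀ t ∈ T, lineOf (Bm T) (H84.cj t K) ≠
    lineOf (Bm T) K → X ≤ centralizer (lineOf (Bm T) (H84.cj t K) : Set G)) : resOf 2 X ≤ K := by
  have h1 : resOf 2 (K ⊔ pCoreOf 2 (Kof T P)) = K := by
    rw [resOf_sup (pg_O _) (s.u.OK_le.trans (dc_norm_Q s.u.s.ch s.syl s.d s.l)), s.d.res]
  rw [← h1]
  refine resOf_le_iff.2 fun y hy ho => mem_resOf ?_ ho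
  have hyK : y ∈ Kof T P := s.res ▸ mem_resOf (hX hy) ho
  obtain ⟨k, hk, -, -, f⟩ := H82.NG.dc_exists_gen s.d
  have key := fun {k} hk hc => s.cent_le hyK (fun t ht e => h t ht e hy) (k := k) hk hc
  rcases (four_tri s.d.card (s.K_norm (s.le_K hk)) (s.K_norm hyK) (by decide : Odd 3)
    (by decide : Odd 3) (s.cube (s.le_K hk)) (s.cube hyK)).2.2 with e | e | e | e
  · exact absurd e f.not_mem
  · exact key (one_mem _) (by simpa using e)
  · exact key (inv_mem hk) e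
  · exact key hk e

theorem om_le : om T ≤ U ⊔ (Zv P ⊓ centralizer (P : Set G)) := fun z hz => by
  obtain ⟨t, ht, h2⟩ := s.two
  have hJ : ∀ {y}, y ∈ om (Bm T) → y ∈ om (JJ (Bm T)) := fun h => om_le_om_JJ _ h
  have hz' : z ∈ om (JJ (Bm T)) := by rw [JJ_Bm]; exact om_le_om_JJ _ hz
  obtain ⟨u, hu, hc⟩ : ∃ u ∈ U, Kof T P ≤ centralizer {z * u} := by
    obtain ⟨-, -, -, -, -, -, -, x, hx, -, -, -, -, hd⟩ := H82.NG.dc_basic s.d
    obtain ⟨-, -, -, -, -, -, -, x', hx', -, -, -, -, hd'⟩ := H82.NG.dc_basic (s.cj ht).d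
    have key : ∀ u ∈ U, K ≤ centralizer {z * u} → (lineOf (Bm T) (H84.cj t K) = lineOf (Bm T) K ∨
        H84.cj t K ≤ centralizer {z * u}) → Kof T P ≤ centralizer {z * u} := fun u hu h1 h3 => by
      have hQ : pCoreOf 2 (Kof T P) ≤ centralizer {z * u} := s.u.OK_le.trans
        (mem_centralizer_iff_le.1 (mul_mem (centralizer_anti (pCoreOf_le_of_sylIn s.syl)
          (om_le_c T hz)) (le_centralizer_comm.1 s.u.Q_le hu)))
      have aux : ∀ {K₁ K₂}, Sy T P U K₁ → Sy T P U K₂ → lineOf (Bm T) K₁ = lineOf (Bm T) K₂ →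
          K₁ ≤ K₂ := fun s₁ s₂ e => s₁.d.res.ge.trans (s₂.le_of_cent s₁.l fun r hr e' =>
            ((s₁.dich (s₂.cj hr)).resolve_left (e ▸ e')).2.2)
      rw [s.K_eq]
      refine ncl_le_iff.2 fun r hr => ?_
      rcases h2 r hr with e | e
      · exact (aux (s.cj hr) s e).trans h1
      · rcases h3 with h3 | h3
        · exact (aux (s.cj hr) s (e.trans h3)).trans h1
        · exact (aux (s.cj hr) (s.cj ht) e).trans h3
    have m : ∀ {K : Subgroup G} {a b : G}, K ≤ centralizer {a} → K ≤ centralizer {b} →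
        K ≤ centralizer {a * b} := fun h1 h2 => mem_centralizer_iff_le.1
      (mul_mem (mem_centralizer_iff_le.2 h1) (mem_centralizer_iff_le.2 h2))
    rcases s.dich (s.cj ht) with e | ⟨-, e, e'⟩
    · rcases hd z hz' with h | h
      · exact ⟨1, one_mem _, key 1 (one_mem _) (by simpa using h) (.inl e)⟩
      · exact ⟨x, s.w hx, key x (s.w hx) h (.inl e)⟩
    · have c := e.trans (c_le_c1 hx)
      have c' := e'.trans (c_le_c1 hx')
      have w' := (s.cj ht).w hx'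
      rcases hd z hz' with h | h <;> rcases hd' z hz' with h' | h'
      · exact ⟨1, one_mem _, key 1 (one_mem _) (by simpa using h) (.inr (by simpa using h'))⟩
      · exact ⟨x', w', key x' w' (m h c') (.inr h')⟩
      · exact ⟨x, s.w hx, key x (s.w hx) h (.inr (m h' c))⟩
      · refine ⟨x * x', mul_mem (s.w hx) w', key _ (mul_mem (s.w hx) w')
          (mul_assoc z x x' ▸ m h c') (.inr ?_)⟩
        rw [ea_le_c s.u.ea w' x (s.w hx), ← mul_assoc]
        exact m h' c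
  have hc' := mem_centralizer_iff_le.2 hc
  have h3 : z * u ∈ centralizer (P : Set G) := by
    rw [← s.u.k.gen, mem_centralizer_iff_le]
    refine sup_le hc fun r hr => mem_c1.2 (commutatorElement_eq_one_iff_mul_comm.1 (mem_bot.1
      (s.u.fpf ▸ ⟨?_, comm_mem_right hc'
        (le_normalizer_centralizer (s.T_le.trans s.u.k.norm) hr)⟩)))
    rw [show ⁅r, z * u⁆ = r * z * r⁻¹ * z⁻¹ * (z * ⁅r, u⁆ * z⁻¹) by
      simp only [commutatorElement_def]; group, om_le_c T hz r hr]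
    simpa using conj_mem_of_mem_normalizer (s.u.norm (s.T_le (NG.om_le T hz)))
      (comm_mem_right hu (s.u.norm (s.T_le hr)))
  have := mul_mem (mem_sup_right (S := U) (T := Zv P ⊓ centralizer (P : Set G))
    ⟨mul_mem (H71.QA.om_le_Zv s.syl hz) (s.U_le_Zv hu), h3⟩) (inv_mem (mem_sup_left hu))
  simpa using this

theorem Zv_le : Zv P ≤ U ⊔ (Zv P ⊓ centralizer (P : Set G)) := by
  conv_lhs => rw [Zv_eq s.syl]
  exact ncl_le s.om_le (le_normalizer_sup s.u.norm (inf_le_normalizer_inf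
    (le_normalizer.trans (H71.QA.norm_Zv P)) (le_normalizer_centralizer le_normalizer)))

theorem comm_le : ⁅Zv P, K⁆ ≤ lineOf (Bm T) K := by
  have hU : U ≤ centralizer (lineOf (Bm T) K : Set G) := (ea_le_c s.u.ea).trans (centralizer_anti s.w)
  refine (H54.le_relCent_iff.1 (s.Zv_le.trans (sup_le ?_ (H54.le_relCent_iff.2
    ⟨inf_le_right.trans ((centralizer_anti (s.w.trans (s.u.le_Q.trans (O_le _)))).trans
      (centralizer_le_normalizer' _)), (commutator_eq_bot_iff_le_centralizer.2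
        (inf_le_right.trans (centralizer_anti s.l))).le.trans bot_le⟩)))).2
  rw [← s.U_eq]
  refine ncl_le_iff.2 fun t ht => H54.le_relCent_iff.2 ⟨(cj_le_of s.w (s.u.norm (s.T_le ht))).trans
    (hU.trans (centralizer_le_normalizer' _)), ?_⟩
  rw [← s.cj_line ht]
  rcases s.dich (s.cj ht) with e | e
  · rw [e]; exact commutator_le_left_of_le_normalizer (H82.NG.dc_KW s.d)
  · exact (commutator_eq_bot_iff_le_centralizer.2 (le_centralizer_comm.1 e.2.2)).le.trans bot_le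

theorem Q_le : pCoreOf 2 P ≤ centralizer (Zv P : Set G) :=
  (le_c_om _).trans (centralizer_anti (Zv_eq s.syl ▸ (H82.NG.red_ncl s.u.s.ch s.syl).2.1))

theorem exists_of_ln {W : Subgroup G} (hW : Ln P W) : ∃ t ∈ T, lineOf (Bm T) (H84.cj t K) = W := by
  obtain ⟨h1, h4, hn, hc⟩ := hW
  rw [s.res] at hn hc
  obtain ⟨t, ht, h2⟩ : ∃ t ∈ T, ¬ H84.cj t K ≤ centralizer (W : Set G) := by
    by_contra h
    push Not at h
    exact hc (s.K_eq ▸ ncl_le_iff.2 h)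
  have s' := s.cj ht
  obtain ⟨k, hk, hkc⟩ := SetLike.not_le_iff_exists.1 h2
  have f := H82.NG.fpf_of_odd (H53.IsElementaryAbelian.of_le'
    (Zv_eq s.syl ▸ (H82.NG.red_ncl s.u.s.ch s.syl).1) h1) h4 (hn (s'.le_K hk)) hkc
    (by decide : Odd 3) (centralizer_anti h1 (s.Q_le (s.u.OK_le
      (ks_cube s.u.k s.c s.le_K k (s'.le_K hk)))))
  exact ⟨t, ht, (H53.eq_of_le_of_card_le ((f.le_comm hk (s'.le_K.trans hn)).trans
    ((commutator_mono h1 le_rfl).trans s'.comm_le)) (by rw [h4, s'.d.card])).symm⟩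

theorem Cp_eq : Cp P (lineOf (Bm T) K) = K := by
  refine le_antisymm (s.le_of_cent inf_le_left fun t ht e x hx =>
    (H71.QA.mem_Cp_inner.1 hx).2 _ (s.cj ht).ln e) (s.d.res.ge.trans (resOf_mono fun k hk =>
      H71.QA.mem_Cp_inner.2 ⟨s.l hk, fun W hW e => ?_⟩))
  obtain ⟨t, ht, rfl⟩ := s.exists_of_ln hW
  exact ((s.dich (s.cj ht)).resolve_left e).2.2 hk

theorem exists_sy {W : Subgroup G} (hW : Ln P W) :
    Sy T P U (Cp P W) ∧ lineOf (Bm T) (Cp P W) = W := by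
  obtain ⟨t, ht, rfl⟩ := s.exists_of_ln hW
  rw [(s.cj ht).Cp_eq]
  exact ⟨s.cj ht, rfl⟩

theorem mem_O {k : G} (hk : k ∈ K) (hc : k ∈ centralizer (lineOf (Bm T) K : Set G)) :
    k ∈ pCoreOf 2 K := by
  by_contra h
  exact s.not_cent (s.c.le_of_not_mem (H82.NG.dc_RC s.d) hk h hc)

theorem faith {g : G} (hg : g ∈ P) (h : ∀ W, Ln P W → g ∈ centralizer (W : Set G)) :
    g ∈ pCoreOf 2 P := by
  have h1 : g ∈ centralizer (U : Set G) := by
    rw [← s.U_eq]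
    exact le_centralizer_comm.1 (ncl_le_iff.2 fun t ht => le_centralizer_comm.1
      (zpowers_le.2 (h _ (s.ln.cj_mem (s.T_le ht))))) (mem_zpowers _)
  exact s.u.mem_Q (s.h.O_eq.ge (s.u.cent ⟨hg, h1⟩)) h1

theorem disj {W W' : Subgroup G} (h : Ln P W) (h' : Ln P W') (hne : W ≠ W') : W ⊓ W' = ⊥ := by
  obtain ⟨a, e⟩ := s.exists_sy h
  obtain ⟨a', e'⟩ := s.exists_sy h'
  have := a'.dich a
  rw [e, e'] at this
  exact (this.resolve_left hne).1

theorem stab {g : G} (hg : g ∈ P)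
    (h : ∀ W, Ln P W → g ∈ centralizer ((W ⊓ om (JJ T) : Subgroup G) : Set G)) : g ∈ T := by
  have hg' := hg
  rw [← s.u.k.gen, H53.mem_sup_of_le_normalizer (s.T_le.trans s.u.k.norm)] at hg'
  obtain ⟨k, hk, t, ht, rfl⟩ := hg'
  refine mul_mem (pCoreOf_le_of_sylIn s.syl (s.faith (s.u.k.le hk) fun W hW => ?_)) ht
  obtain ⟨a, e⟩ := s.exists_sy hW
  obtain ⟨-, -, -, -, -, -, -, x, hx, x1, hJ, -⟩ := H82.NG.dc_basic a.d
  obtain ⟨A, hA, b, hb, hbc⟩ := H82.NG.dc_exists_A a.d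
  have kn := a.K_norm hk
  have kc := a.cube hk
  rw [e] at hx hbc kn kc
  rw [JJ_Bm] at hJ
  have hbJ : b ∈ JJ T := JJ_Bm T ▸ H51.le_thompsonSubgroupOf hA hb
  have h1 : k * t * x * (k * t)⁻¹ = x := conj_eq_iff.2 (h W hW x ⟨hx, hJ⟩).symm
  have h2 : k * t ∈ normalizer (W : Set G) := mem_normalizer_of_cj_eq (by
    by_contra e'
    exact ne_bot_of_mem (X := H84.cj (k * t) W ⊓ W) ⟨h1 ▸ conj_mem_map_conj hx, hx⟩ x1
      (s.disj (hW.cj_mem hg) hW e'))
  have h3 : t ∈ normalizer (W : Set G) := (mul_mem_cancel_left kn).1 h2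
  have h4 : t * x * t⁻¹ = x := by
    by_contra e'
    exact hbc (four_fix_two hW.2.1 (conj_mem_of_mem_normalizer h3 hx) hx (by simpa using x1) x1 e'
      (om_le_c _ (conj_mem_of_mem_normalizer (norm_om (norm_JJ le_normalizer) ht) hJ) b hbJ)
      (om_le_c _ hJ b hbJ))
  refine four_odd_fix hW.2.1 kn (by decide : Odd 3) kc hx x1 (conj_eq_iff.1 ?_)
  calc k * x * k⁻¹ = k * (t * x * t⁻¹) * k⁻¹ := by rw [h4]
    _ = k * t * x * (k * t)⁻¹ := by group
    _ = x := h1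

theorem vx : Vx P := by
  obtain ⟨ea, hle, -⟩ := H82.NG.red_ncl s.u.s.ch s.syl
  have back : ∀ S, SylIn 2 S P → ∃ g ∈ P, S = H84.cj g T := fun S hS =>
    let ⟨g, hg, e⟩ := s.syl.exists_conj hS
    ⟨g, hg, e.symm⟩
  have hres : resOf 2 P ≤ ⨆ W, ⨆ _ : Ln P W, Cp P W := by
    rw [s.res, s.K_eq]
    exact ncl_le_iff.2 fun t ht => le_iSup₂_of_le (f := fun W (_ : Ln P W) => Cp P W) _
      (s.cj ht).ln (s.cj ht).Cp_eq.ge
  refine ⟨Zv_eq s.syl ▸ ea, Zv_eq s.syl ▸ hle.trans (NG.om_le _), s.Q_le, ⟨_, s.ln⟩,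
    fun W₁ W₂ W₃ h₁ h₂ h₃ => ?_, fun _ _ => s.disj, s.Zv_le.trans (sup_le_sup_right ?_ _),
    fun _ => s.faith, fun W hW => (s.exists_sy hW).1.c, hres, ?_, fun S W hS hW => ?_,
    fun S W W' hS hW hW' => ?_, fun S hS x hx h => ?_⟩
  · obtain ⟨a₁, e₁⟩ := s.exists_sy h₁
    obtain ⟨a₂, e₂⟩ := s.exists_sy h₂
    obtain ⟨a₃, e₃⟩ := s.exists_sy h₃
    have := dc_two s.h s.u le_rfl s.h.Bm_le_O s.j a₁.c a₁.d a₂.d a₃.d a₁.l a₂.l a₃.l
    rwa [e₁, e₂, e₃] at this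
  · rw [← s.U_eq]
    exact ncl_le_iff.2 fun t ht => le_iSup₂_of_le (f := fun W (_ : Ln P W) => W) _
      (s.ln.cj_mem (s.T_le ht)) le_rfl
  · obtain ⟨t, ht, h2⟩ := s.two
    have s' := s.cj ht
    have h1 : resOf 2 P ≤ K ⊔ H84.cj t K := hres.trans (iSup₂_le fun W hW => by
      obtain ⟨r, hr, rfl⟩ := s.exists_of_ln hW
      rcases h2 r hr with e | e <;> rw [e]
      · exact s.Cp_eq.le.trans le_sup_left
      · exact s'.Cp_eq.le.trans le_sup_right)
    have lo : ∀ {K}, Sy T P U K → pCoreOf 2 K ≤ ⨆ W, ⨆ _ : Ln P W, pCoreOf 2 (Cp P W) := fun a =>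
      le_iSup₂_of_le (f := fun W (_ : Ln P W) => pCoreOf 2 (Cp P W)) _ a.ln (by rw [a.Cp_eq])
    rcases s.dich s' with e | ⟨-, e, e'⟩
    · have : H84.cj t K = K := by rw [← s'.Cp_eq, e, s.Cp_eq]
      rw [this, sup_idem] at h1
      rw [le_antisymm h1 (s.le_K.trans s.res.ge)]
      exact lo s
    · intro r hr
      have hrQ : r ∈ pCoreOf 2 P := s.u.OK_le (s.res ▸ hr)
      obtain ⟨k, hk, k', hk', rfl⟩ := (H53.mem_sup_of_le_normalizer (fun y hy => s.Cp_eq ▸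
        H71.QA.norm_Cp (s'.l hy) (s.norm_line s' hy))).1 (h1 (O_le _ hr))
      exact mul_mem (lo s (s.mem_O hk ((mul_mem_cancel_right (e hk')).1 (s.Q_cent hrQ))))
        (lo s' (s'.mem_O hk' ((mul_mem_cancel_left (e' hk)).1 (s'.Q_cent hrQ))))
  · obtain ⟨g, hg, rfl⟩ := back S hS
    obtain ⟨a, e⟩ := s.exists_sy (hW.cj_mem (inv_mem hg))
    have h3 := dc_cj a.d g
    have h4 := congrArg (H84.cj g) e
    rw [cj_lineOf] at h4
    rw [cj_Bm, H71.QA.cj_Cp, cj_cj_inv, cj_eq_of_mem_normalizer (le_normalizer hg)] at h3 h4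
    exact ⟨h3, h4⟩
  · obtain ⟨g, hg, rfl⟩ := back S hS
    obtain ⟨t, ht, e⟩ := s.exists_of_ln (hW.cj_mem (inv_mem hg))
    obtain ⟨t', ht', e'⟩ := s.exists_of_ln (hW'.cj_mem (inv_mem hg))
    rw [s.cj_line ht] at e
    rw [s.cj_line ht'] at e'
    refine ⟨_, conj_mem_map_conj (g := g) (mul_mem ht' (inv_mem ht)), ?_⟩
    rw [← cj_cj_inv g W', ← e', ← cj_inv_cj t (lineOf (Bm T) K), e, cj_cj, cj_cj, cj_cj]
    simp only [mul_assoc]
  · obtain ⟨g, hg, rfl⟩ := back S hS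
    refine mem_map_conj.2 (s.stab (mul_mem (mul_mem (inv_mem hg) hx) hg) fun W hW => ?_)
    have := h _ (hW.cj_mem hg)
    rwa [← cj_JJ, ← cj_om, ← H71.QA.cj_inf, ← H71.QA.cj_centralizer, H71.QA.mem_cj] at this

end Sy

theorem pr_inf {T P P' : Subgroup G} (p : Pr T P P') : P ⊓ P' = T := by
  refine le_antisymm ?_ (le_inf p.s1.cov.le p.s2.cov.le)
  by_contra h
  have h1 := H24.NG.sd_eq p.s1 (le_inf p.s1.cov.le p.s2.cov.le) inf_le_left h
  have h2 := H24.NG.sd_eq p.s2 (le_inf p.s1.cov.le p.s2.cov.le) inf_le_right h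
  exact H24.NG.sd_Q_ne_bot p.s1 (p.free _ (pg_O P) (le_normalizer_pCoreOf 2 P)
    ((h2.ge.trans inf_le_left).trans (le_normalizer_pCoreOf 2 P)))

theorem pr_ed {T P P' : Subgroup G} (h : HA T) (p : Pr T P P')
    (hC : centralizer (om T : Set G) ≤ T) : Ed P P' := by
  obtain ⟨U, K, s⟩ := exists_sy h p hC
  obtain ⟨U', K', s'⟩ := exists_sy h (pr_symm p) hC
  exact ⟨s.vx, s'.vx, (pr_inf p).symm ▸ s.syl, (pr_inf p).symm ▸ s'.syl, p.free,
    s.res ▸ pr_R h p le_rfl, s'.res ▸ pr_R h (pr_symm p) le_rfl⟩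

/-- The reduction of the theorem to an edge over `T`. -/
theorem exists_ed (hQ : IsQTKE G) (T : Sylow 2 G) (hE : calLf (T : Subgroup G) = ∅)
    {M₁ M₂ : Subgroup G}
    (h₁ : M₁ ∈ maxTwoLocalsContaining (centralizer (om (T : Subgroup G) : Set G)))
    (h₂ : M₂ ∈ maxTwoLocalsContaining (centralizer (om (T : Subgroup G) : Set G)))
    (hne : M₁ ≠ M₂) : H71.QA.HA (T : Subgroup G) ∧
      centralizer (om (T : Subgroup G) : Set G) = T ∧
      ∃ P P' : Subgroup G, Ed P P' ∧ P ⊓ P' = T := by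
  have h := ha_of hQ T hE h₁ h₂ hne
  obtain ⟨hC, -, P, P', p⟩ := h.exists_pr_T h₁ h₂ hne
  exact ⟨⟨⟨h.syl, h.ch, h.rank⟩, h.solv⟩, hC, P, P', pr_ed h p hC.le, pr_inf p⟩

end Cfsg.Agent.H72.QA
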