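import Cfsg.Agent.H72.QA3

/-!
QA blocks A and B in the form of the stubs: `d8w`, `setup`, `pr_jj`, `ed_of`.
-/

set_option autoImplicit false

namespace Cfsg.Agent.H72.QA

open Cfsg Cfsg.Agent.H98 Cfsg.Agent.H84 Cfsg.Agent.H71.NG Cfsg.Agent.H72.NG Subgroup
open Cfsg.Agent.H71.QA (Ed)
open scoped commutatorElement

variable {G : Type*} [Group G] [Finite G]

/-- D8-lemma without global hypothesis. -/
theorem d8w {K K' D : Subgroup G} (hK : A4 K) (hK' : A4 K') (hD : IsPGroup 2 D)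
    (n : D ≤ normalizer (K : Set G)) (n' : D ≤ normalizer (K' : Set G))
    (w : pCoreOf 2 K ≤ D) (w' : pCoreOf 2 K' ≤ D) (hne : ⁅pCoreOf 2 K, pCoreOf 2 K'⁆ ≠ ⊥) :
    Nat.card ↥(pCoreOf 2 K ⊔ pCoreOf 2 K') = 8 ∧ ¬ Group.IsSolvable ↥(K ⊔ K') ∧
      D = pCoreOf 2 K ⊔ pCoreOf 2 K' ⊔ (D ⊓ centralizer (K : Set G)) ∧
      (pCoreOf 2 K ⊔ pCoreOf 2 K') ⊓ centralizer (K : Set G) = ⊥ ∧
      D ⊓ centralizer (K : Set G) ≤
        centralizer ((pCoreOf 2 K ⊔ pCoreOf 2 K' : Subgroup G) : Set G) := by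
  obtain ⟨x, a, b, s, t, hab⟩ := exists_HW hK hK' n n' w w' hne
  have ab := s.conj t.aD hab.symm
  have hn := w'.trans (norm_O n)
  have hx : ∀ y ∈ pCoreOf 2 K', a * y = y * a → y ∈ zpowers x := fun y hy h => by
    rcases (t.ia.mem_iff y).1 (t.W.le hy) with rfl | rfl | rfl | rfl
    · exact one_mem _
    · exact mem_zpowers _
    · exact absurd h hab
    · rw [← mul_assoc, ← s.ia.comm, mul_assoc, mul_assoc, mul_right_inj] at h
      exact absurd h hab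
  refine ⟨?_, s.nsolv t hab hD, le_antisymm (fun d hd => ?_) (sup_le (sup_le w w') inf_le_left),
    le_bot_iff.1 fun r hr => ?_, fun e he => mem_centralizer_iff_le.2 (sup_le
      ((O_le K).trans (mem_centralizer_iff_le.1 he.2)) ?_)⟩
  · have h1 := H53.card_inf_mul_card_sup hn
    rw [le_antisymm (fun y hy => hx y hy.2 (H93.NG.A4_comm hK s.a_mem hy.1))
      (zpowers_le.2 ⟨s.x_mem, t.x_mem⟩ : zpowers x ≤ pCoreOf 2 K ⊓ pCoreOf 2 K'), Nat.card_zpowers,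
      ord2 s.ia.sa s.ia.na, hK.card, hK'.card] at h1
    omega
  · obtain ⟨v, hv, h | h⟩ := H93.NG.side hK n s.ia s.W t.aD ab s.xc hd
    · simpa using mul_mem (mem_sup_right (S := pCoreOf 2 K ⊔ pCoreOf 2 K')
        (T := D ⊓ centralizer (K : Set G)) ⟨mul_mem hd (w (s.W.ge hv)),
        mem_centralizer_iff_le.2 h⟩) (inv_mem (mem_sup_left (mem_sup_left (s.W.ge hv))))
    · simpa using mul_mem (mul_mem (mem_sup_right (S := pCoreOf 2 K ⊔ pCoreOf 2 K')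
        (T := D ⊓ centralizer (K : Set G)) ⟨mul_mem (mul_mem hd t.aD) (w (s.W.ge hv)),
        mem_centralizer_iff_le.2 h⟩) (inv_mem (mem_sup_left (mem_sup_left (s.W.ge hv)))))
        (inv_mem (mem_sup_left (mem_sup_right t.a_mem)))
  · obtain ⟨u, hu, v, hv, rfl⟩ := (H53.mem_sup_of_le_normalizer hn).1 hr.1
    have h1 := hr.2 a (O_le K s.a_mem)
    rw [← mul_assoc, H93.NG.A4_comm hK s.a_mem hu, mul_assoc, mul_assoc, mul_right_inj] at h1
    exact H93.NG.A4_eq_one hK (mul_mem hu (zpowers_le.2 s.x_mem (hx v hv h1)))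
      (mem_centralizer_iff_le.1 hr.2)
  · rw [t.W]
    exact four_le (mem_c1.2 (s.xc e he.1).symm) (mem_c1.2 (H93.NG.side_comm hK n n' t.ia s.W t.W
      t.aD ab s.ia.comm he.1 (mem_centralizer_iff_le.1 he.2)).symm)

omit [Finite G] in
theorem ha_of_ha {T : Subgroup G} (h : H71.QA.HA T) : HA T := ⟨h.syl, h.solv, h.ch, h.qt⟩

theorem res_eq {T P : Subgroup G} (hT : IsPGroup 2 T) (k : KS T P (Kof T P)) (h : T ≤ P) :
    resOf 2 P = Kof T P := by
  conv_lhs => rw [← k.gen]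
  rw [resOf_sup hT (h.trans k.norm), k.res]

theorem pr_jj {T P P' : Subgroup G} (h : H71.QA.HA T) (c : centralizer (om T : Set G) ≤ T)
    (p : Pr T P P') :
    ¬ JJ T ≤ pCoreOf 2 P ∧ ¬ pCoreOf 2 (resOf 2 P) ≤ pCoreOf 2 P' :=
  have h' := ha_of_ha h
  ⟨h'.O_eq ▸ pr_JJ h' p le_rfl c,
    res_eq h.syl.isPGroup (pr_ks h' p le_rfl) p.s1.cov.le ▸ pr_R h' p le_rfl⟩

theorem ed_of {T P P' : Subgroup G} (h : H71.QA.HA T) (c : centralizer (om T : Set G) ≤ T)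
    (p : Pr T P P') : Ed P P' ∧ P ⊓ P' = T := ⟨pr_ed (ha_of_ha h) p c, pr_inf p⟩

/-- Minimal overgroups of `T` in two distinct maximal 2-locals form a pair. -/
theorem HA.pr_of {T M M' P P' : Subgroup G} (h : HA T) (c : centralizer (om T : Set G) = T)
    (hM : IsMaximalTwoLocal M) (hM' : IsMaximalTwoLocal M') (hne : M ≠ M') (v : T ⋖ P)
    (v' : T ⋖ P') (l : P ≤ M) (l' : P' ≤ M') : Pr T P P' := by
  refine ⟨h.sd hM.1 le_rfl v l, h.sd hM'.1 le_rfl v' l', fun X hX n n' => ?_⟩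
  by_contra e
  obtain ⟨L, hL, hXL⟩ := H81.QT.exists_maxTwoLocal (loc_of hX e)
  have key : ∀ N Q, IsMaximalTwoLocal N → T ⋖ Q → Q ≤ N → Q ≤ L → N = L := fun N Q hN v l l' => by
    by_contra e'
    exact v.lt.not_ge ((le_inf l l').trans (h.exists_pr_T ⟨hN, c.le.trans (v.le.trans l)⟩
      ⟨hL, c.le.trans (v.le.trans l')⟩ e').2.1.le)
  exact hne ((key M P hM v l (n.trans hXL)).trans (key M' P' hM' v' l' (n'.trans hXL)).symm)

/-- `T` is self-normalizing in the strong sense: no 2-local over `T` other than `T` normalizes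
`J(T)`. -/
theorem HA.norm_JJ {T M₁ M₂ : Subgroup G} (h : HA T)
    (h₁ : M₁ ∈ maxTwoLocalsContaining (centralizer (om T : Set G)))
    (h₂ : M₂ ∈ maxTwoLocalsContaining (centralizer (om T : Set G))) (hne : M₁ ≠ M₂) :
    normalizer (JJ T : Set G) = T := by
  obtain ⟨c, -, P₁, P₂, p⟩ := h.exists_pr_T h₁ h₂ hne
  have hT : T ≤ normalizer (JJ T : Set G) := NG.norm_JJ le_normalizer
  by_contra e
  obtain ⟨P, v, l⟩ := exists_covBy_le_of_lt (lt_of_le_of_ne hT (Ne.symm e))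
  have hJ := h.syl.isPGroup.to_le (JJ_le T)
  obtain ⟨M, hM, hle⟩ := H81.QT.exists_maxTwoLocal (loc_of hJ (JJ_ne_bot h.syl.isPGroup
    (ne_bot_of_le ((O_le_of_cov p.s1).trans (O_le T)) (H24.NG.sd_Q_ne_bot p.s1))))
  obtain ⟨M', h', hne'⟩ : ∃ M' ∈ maxTwoLocalsContaining (centralizer (om T : Set G)), M ≠ M' := by
    by_cases e : M = M₁
    · exact ⟨M₂, h₂, e ▸ hne⟩
    · exact ⟨M₁, h₁, e⟩
  obtain ⟨P', v', l'⟩ := exists_covBy_le_of_lt (lt_of_le_of_ne (c.ge.trans h'.2) fun e' =>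
    hne' (h'.1.2 M hM.1 (e'.ge.trans (hT.trans hle))))
  refine pr_JJ h (h.pr_of c hM h'.1 hne' v v' (l.trans hle) l') le_rfl c.le ?_
  rw [h.O_eq]
  exact le_pCoreOf ((JJ_le T).trans v.le) l hJ

theorem setup (hQ : IsQTKE G) (T : Sylow 2 G) (hE : calLf (T : Subgroup G) = ∅)
    (hZ : ∃ M₁ M₂ : Subgroup G,
      M₁ ∈ maxTwoLocalsContaining (centralizer (om (T : Subgroup G) : Set G)) ∧
      M₂ ∈ maxTwoLocalsContaining (centralizer (om (T : Subgroup G) : Set G)) ∧ M₁ ≠ M₂) :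
    H71.QA.HA (T : Subgroup G) ∧ centralizer (om (T : Subgroup G) : Set G) = T ∧
      normalizer (JJ (T : Subgroup G) : Set G) = T ∧
      ∃ P P' : Subgroup G, Pr (T : Subgroup G) P P' := by
  obtain ⟨M₁, M₂, h₁, h₂, hne⟩ := hZ
  have h := ha_of hQ T hE h₁ h₂ hne
  obtain ⟨c, -, p⟩ := h.exists_pr_T h₁ h₂ hne
  exact ⟨⟨⟨h.syl, h.ch, h.rank⟩, h.solv⟩, c, h.norm_JJ h₁ h₂ hne, p⟩

end Cfsg.Agent.H72.QA
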