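import Cfsg.Agent.H35.RfQ

/-! Project RF: the chapter QT (assembly and transport along the action on tetrads). -/

set_option autoImplicit false

namespace Cfsg.Agent.H72.RfQt

open Cfsg Subgroup Cfsg.Agent.H42 Cfsg.Agent.H18.Rf Cfsg.Agent.H35.RF
open Cfsg.Agent.H48 (IsWord)
open scoped commutatorElement Pointwise symmDiff

universe u

theorem qt0 (kit : KitTStmt.{u}) (va : VaTStmt.{u}) (vb : VbTStmt.{u}) (vc : VcTStmt.{u})
    (vd : VdTStmt.{u}) (ta : TaStmt.{u}) (tb : TbStmt.{u}) (tc : TcStmt.{u}) (td : TdStmt.{u})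
    (q1 : Qc1Stmt.{u}) (q2 : Qc2Stmt.{u}) (q3 : Qc3Stmt.{u}) (lc : LcStmt.{u})
    (lta : LtaStmt.{u}) (r4 : R4Stmt.{u}) (r5 : R5Stmt.{u}) : Qt0Stmt.{u} := by
  intro G _ _ V ρ ψ hS hT
  obtain ⟨-, -, -, -, -, ω, hz⟩ := kit G V ρ ψ hS hT
  have a := va G V ρ ψ ω hz
  have b := vb G V ρ ψ ω hz
  have c := vc G V ρ ψ ω hz
  have d := vd G V ρ ψ ω hz
  have a' := ta G V ρ ψ ω hz
  have b' := tb G V ρ ψ ω hz
  have c' := tc G V ρ ψ ω hz
  have d' := td G V ρ ψ ω hz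
  have s1 := q1 G V ρ ψ ω hz
  have hV : VC V (ψ t0) (WT ψ) (RT V ρ) := ⟨a, b, c, d⟩
  obtain ⟨Q, hQ⟩ := q2 G V _ _ _ ω a a' s1
  have s3 := q3 G V ρ ψ ω hz Q hQ
  have hL := lc G V _ _ _ Q hV hQ s3
  obtain ⟨l1, l2, l3, l4⟩ := lta G V _ _ _ Q ω a a' hQ
  refine ⟨Q, WT ψ, ω, hL, l1, a'.cW, a'.om, a'.o3, l2, fun m hm => ?_,
    r4 G V _ _ _ Q ω hV a' b' hQ hL.xs, r5 G V _ _ _ Q ω a a' c' d' hQ⟩
  rcases a'.sl m hm with h | h
  · exact Or.inl (l3 m hm h)
  · exact Or.inr (l4 m hm h)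

theorem word_smul (g : M24) {c : Finset GolayPt} (hc : IsWord c) : IsWord (g • c) :=
  IsWord.smul g.2 hc

theorem exists_tetrad {t : Finset GolayPt} (ht : t.card = 4) : ∃ g : M24, g • t0 = t := by
  have h0 : t0.card = 4 := by
    unfold t0
    rw [card_toSet (by norm_num)]
    decide +kernel
  let x := (Finset.equivFinOfCardEq h0).symm
  let y := (Finset.equivFinOfCardEq ht).symm
  obtain ⟨g, hg⟩ := exists_smul_fun (k := 4) (by norm_num) (fun i => (x i : GolayPt))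
    (fun i => (y i : GolayPt)) (Subtype.val_injective.comp x.injective)
    (Subtype.val_injective.comp y.injective)
  refine ⟨g, ?_⟩
  ext p
  rw [Finset.mem_smul_finset]
  constructor
  · rintro ⟨q, hq, rfl⟩
    have := hg (x.symm ⟨q, hq⟩)
    rw [Equiv.apply_symm_apply] at this
    rw [show g • q = _ from this]
    exact (y _).2
  · intro hp
    refine ⟨_, (x (y.symm ⟨p, hp⟩)).2, ?_⟩
    have := hg (y.symm ⟨p, hp⟩)
    rw [Equiv.apply_symm_apply] at this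
    exact this

section

variable {G : Type u} [Group G] {V : Subgroup G} {ρ : NN V →* M24} {ψ : Finset GolayPt → G}

theorem st_conj (g : M24) (h : St V ρ) : St V ((MulAut.conj g⁻¹).toMonoidHom.comp ρ) where
  el := h.el
  card := h.card
  cen := h.cen
  sur := (MulAut.conj g⁻¹).surjective.comp h.sur
  ker := fun n => by
    rw [← h.ker n]
    exact (MulAut.conj g⁻¹).map_eq_one_iff

theorem tod_conj (g : M24) (h : Tod V ρ ψ) :
    Tod V ((MulAut.conj g⁻¹).toMonoidHom.comp ρ) (fun c => ψ (g • c)) where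
  add := fun c d hc hd => by
    rw [Finset.smul_finset_symmDiff]
    exact h.add _ _ (by rwa [Finset.card_smul_finset]) (by rwa [Finset.card_smul_finset])
  mem := fun c hc => h.mem _ (by rwa [Finset.card_smul_finset])
  sur := fun v hv => by
    obtain ⟨c, hc, rfl⟩ := h.sur v hv
    exact ⟨g⁻¹ • c, by rwa [Finset.card_smul_finset], by simp only [smul_inv_smul]⟩
  ker := fun c hc => by
    rw [h.ker _ (by rwa [Finset.card_smul_finset])]
    refine ⟨fun h1 => ?_, word_smul g⟩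
    have := word_smul g⁻¹ h1
    rwa [inv_smul_smul] at this
  act := fun n c hc => by
    rw [h.act n _ (by rwa [Finset.card_smul_finset])]
    congr 1
    change _ = g • (g⁻¹ * ρ n * g⁻¹⁻¹) • c
    simp only [mul_smul, inv_inv, smul_inv_smul]

end

theorem qt_of (h : Qt0Stmt.{u}) : QtStmt.{u} := by
  intro G _ _ V ρ ψ hS hT t ht
  obtain ⟨g, rfl⟩ := exists_tetrad ht
  exact h G V _ (fun c => ψ (g • c)) (st_conj g hS) (tod_conj g hT)

theorem qt (kit : KitTStmt.{u}) (va : VaTStmt.{u}) (vb : VbTStmt.{u}) (vc : VcTStmt.{u})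
    (vd : VdTStmt.{u}) (ta : TaStmt.{u}) (tb : TbStmt.{u}) (tc : TcStmt.{u}) (td : TdStmt.{u})
    (q1 : Qc1Stmt.{u}) (q2 : Qc2Stmt.{u}) (q3 : Qc3Stmt.{u}) (lc : LcStmt.{u})
    (lta : LtaStmt.{u}) (r4 : R4Stmt.{u}) (r5 : R5Stmt.{u}) : QtStmt.{u} :=
  qt_of (qt0 kit va vb vc vd ta tb tc td q1 q2 q3 lc lta r4 r5)

end Cfsg.Agent.H72.RfQt
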