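import Cfsg.Agent.H6.TBDefs

/-!
# Project TB: additive inversion forces `q ≤ 4`
-/

set_option autoImplicit false

namespace Cfsg.Agent.H72.TbLQ

open Cfsg Subgroup Cfsg.Agent.H6.TB
open Cfsg.Agent.H83 (cj)
open scoped Cfsg.Agent.H63 commutatorElement

universe u

variable {G : Type u} [Group G] {Ω : Set (Subgroup G)} {P Q : Subgroup G} {x y : G}

theorem dec (h : TB Ω) (e : Nc Ω P Q) {i i' j j' : G} (hi : i ∈ P) (hi' : i' ∈ P) (hj : j ∈ Q)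
    (hj' : j' ∈ Q) (k : i * j = i' * j') : i = i' ∧ j = j' := by
  have h1 : i'⁻¹ * i = j' * j⁻¹ := by
    calc i'⁻¹ * i = i'⁻¹ * (i * j) * j⁻¹ := by group
      _ = _ := by rw [k]; group
  have h2 : i'⁻¹ * i ∈ P ⊓ Q := 
    mem_inf.2 ⟨mul_mem (inv_mem hi') hi, h1 ▸ mul_mem hj' (inv_mem hj)⟩
  rw [h.ti P e.l Q e.r e.ne, mem_bot] at h2
  have h3 : i = i' := (inv_mul_eq_one.1 h2).symm
  exact ⟨h3, mul_left_cancel (h3 ▸ k)⟩

theorem ex_om (h : TB Ω) (hP : P ∈ Ω) : ∃ i ∈ om P, i ≠ 1 := by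
  by_contra k
  push Not at k
  have := h.four P hP
  rw [(eq_bot_iff_forall _).2 k, card_bot] at this
  omega

theorem cj_eq (a v : G) : a * v * a⁻¹ = ⁅a, v⁆ * v := by
  rw [commutatorElement_def]; group

theorem rel_ex (h : TB Ω) (la : LA Ω) (le : H6.TB.LE Ω) (lb : LB Ω) (e : Nc Ω P Q)
    (hq : qq P = Nat.card (om P)) (hy : y ∈ Q) (hy' : y ∉ om Q) :
    ∃ x ∈ P, x ∉ om P ∧ cj y P = cj x Q := by
  have e' := la.nsymm e
  obtain ⟨i, hi, i1⟩ := ex_om h e.l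
  have hiV : i ∈ vv Q P := mem_sup_right hi
  have hb := le.brk e'.toAd y hy i hiV
  have hv : y * i * y⁻¹ ∈ vv P Q := by
    rw [cj_eq]; exact mul_mem (mem_sup_right hb) (mem_sup_left hi)
  have hv' : y * i * y⁻¹ ∉ om P := fun k => by
    rw [cj_eq] at k
    have k1 : ⁅y, i⁆ ∈ P := (mul_mem_cancel_right (om_le P hi)).1 (om_le P k)
    have k2 : ⁅y, i⁆ = 1 := mem_bot.1 (h.ti P e.l Q e.r e.ne ▸ ⟨k1, om_le Q hb⟩)
    refine hy' (le.cA e' y hy i hiV (fun k3 => i1 ?_) (commutatorElement_eq_one_iff_mul_comm.1 k2))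
    exact mem_bot.1 (h.ti P e.l Q e.r e.ne ▸ ⟨om_le P hi, om_le Q k3⟩)
  obtain ⟨x, hx, k⟩ := lb.part e hq _ hv hv'
  have k1 : cj y P = cj x Q :=
    la.eq _ (h.conj P e.l y) _ (h.conj Q e.r x) _ (mem_map_of_mem _ (om_le P hi))
      (H83.cj_mono x (om_le Q) k) (by simpa using i1)
  refine ⟨x, hx, fun k2 => e.ne ?_, k1⟩
  have k3 : x ∈ N[Q] := le.vle e'.toAd (mem_sup_right k2)
  rw [H83.cj_eq_self k3, ← H83.cj_eq_self (le_normalizer hy)] at k1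
  exact H83.cj_inj.1 k1

theorem rel_id (h : TB Ω) (la : LA Ω) (le : H6.TB.LE Ω) (e : Nc Ω P Q) (hx : x ∈ P) (hy : y ∈ Q)
    (r : cj y P = cj x Q) {i : G} (hi : i ∈ om P) : ⁅x, ⁅y, i⁆⁆ = i := by
  have e' := la.nsymm e
  have h1 : y * i * y⁻¹ ∈ cj x (om Q) := by
    rw [← om_cj, ← r, om_cj]; exact mem_map_of_mem _ hi
  obtain ⟨j, hj, k⟩ := h1
  have k1 : x * j * x⁻¹ = y * i * y⁻¹ := k
  have hb := le.brk e'.toAd y hy i (mem_sup_right hi)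
  have hc := le.brk e.toAd x hx j (mem_sup_right hj)
  rw [cj_eq, cj_eq, ← le.adc e.toAd i hi _ hb] at k1
  obtain ⟨k2, k3⟩ := dec h e (om_le P hc) (om_le P hi) (om_le Q hj) (om_le Q hb) k1
  rw [← k3, k2]

theorem rel_iv (h : TB Ω) (la : LA Ω) (le : H6.TB.LE Ω) (e : Nc Ω P Q) (hx : x ∈ P) (hy : y ∈ Q)
    (r : cj y P = cj x Q) : Iv (y * y) x := by
  have e' := la.nsymm e
  obtain ⟨j, hj, j1⟩ := ex_om h e.r
  have hi := le.brk e.toAd x hx j (mem_sup_right hj)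
  have hj' := rel_id h la le e' hy hx r.symm hj
  obtain ⟨y2, hy2, k⟩ : y * x * y⁻¹ ∈ cj x Q := r ▸ mem_map_of_mem _ hx
  have k1 : x * y2 * x⁻¹ = y * x * y⁻¹ := k
  have a1 := cj_eq x j
  generalize ⁅x, j⁆ = i at hi hj' a1
  have a2 := cj_eq y i
  rw [hj'] at a2
  have a3 : y * j = j * y := h.comm Q e.r y hy j (om_le Q hj)
  have a4 : y2 * j = j * y2 := h.comm Q e.r y2 hy2 j (om_le Q hj)
  have a5 : x * i = i * x := h.comm P e.l x hx i (om_le P hi)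
  have a6 : i * j = j * i := le.adc e.toAd i hi j hj
  have a7 : i * i = 1 := ((la.mem_om P e.l i).1 hi).2
  have a8 : j * j = 1 := ((la.mem_om Q e.r j).1 hj).2
  have b1 : y * x * y⁻¹ * j * (y * x * y⁻¹)⁻¹ = i := by
    calc _ = y * (x * (y⁻¹ * (j * y)) * x⁻¹) * y⁻¹ := by group
      _ = y * (x * j * x⁻¹) * y⁻¹ := by rw [← a3]; group
      _ = y * i * y⁻¹ * (y * j * y⁻¹) := by rw [a1]; group
      _ = j * i * j := by rw [a2, a3]; group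
      _ = i := by rw [← a6, mul_assoc, a8, mul_one]
  have b2 : x⁻¹ * j * x = i * j := by
    calc _ = x⁻¹ * (i * (i * j)) * x := by rw [← mul_assoc i, a7, one_mul]
      _ = x⁻¹ * (i * x) * j := by rw [← a1]; group
      _ = _ := by rw [← a5]; group
  have b3 : y2 * i * y2⁻¹ = y * i * y⁻¹ := by
    rw [← k1] at b1
    have b4 : y2 * (x⁻¹ * j * x) * y2⁻¹ = i := by
      calc _ = x⁻¹ * (x * y2 * x⁻¹ * j * (x * y2 * x⁻¹)⁻¹) * x := by group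
        _ = x⁻¹ * (i * x) := by rw [b1, mul_assoc]
        _ = i := by rw [← a5]; group
    rw [b2] at b4
    calc _ = y2 * i * (j * j) * y2⁻¹ := by rw [a8, mul_one]
      _ = y2 * (i * j) * y2⁻¹ * (y2 * j * y2⁻¹) := by group
      _ = i * j := by rw [b4, a4]; group
      _ = _ := by rw [a2, a6]
  have hu : y⁻¹ * y2 ∈ om Q := by
    refine le.cA e' _ (mul_mem (inv_mem hy) hy2) i (mem_sup_right hi) (fun k3 => j1 ?_) ?_
    · have : i = 1 := mem_bot.1 (h.ti P e.l Q e.r e.ne ▸ ⟨om_le P hi, om_le Q k3⟩)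
      rw [← hj', this, commutatorElement_one_right]
    · calc _ = y⁻¹ * (y2 * i * y2⁻¹) * y2 := by group
        _ = _ := by rw [b3]; group
  have c1 : y2 * y2 = y * y := by
    have c2 := ((la.mem_om Q e.r _).1 hu).2
    have c3 : y2 * y = y * y2 := h.comm Q e.r y2 hy2 y hy
    have c6 : y2 = y * y2⁻¹ * y := by
      calc _ = y * (y⁻¹ * y2 * (y⁻¹ * y2)) * y2⁻¹ * y := by group
        _ = _ := by rw [c2, mul_one]
    calc _ = y * y2⁻¹ * y * y2 := by rw [← c6]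
      _ = y * y2⁻¹ * (y2 * y) := by rw [c3, mul_assoc]
      _ = _ := by group
  have c4 : x * (y * y) * x⁻¹ = y * (x * x) * y⁻¹ := by
    rw [← c1]
    calc _ = x * y2 * x⁻¹ * (x * y2 * x⁻¹) := by group
      _ = _ := by rw [k1]; group
  have hxx := le.sq e x hx
  have hyy := le.sq e' y hy
  have hb := le.brk e'.toAd y hy _ (mem_sup_right hxx)
  have hc := le.brk e.toAd x hx _ (mem_sup_right hyy)
  rw [cj_eq, cj_eq, ← le.adc e.toAd _ hxx _ hb] at c4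
  have c5 := (dec h e (om_le P hc) (om_le P hxx) (om_le Q hyy) (om_le Q hb) c4).1
  rw [Iv]
  generalize y * y = z at c5 ⊢
  calc _ = (x⁻¹ * ⁅x, z⁆)⁻¹ := by rw [commutatorElement_def]; group
    _ = _ := by rw [c5]; group

theorem sq_eq (h : TB Ω) (la : LA Ω) (hQ : Q ∈ Ω) {y' : G} (hy : y ∈ Q) (hy' : y' ∈ Q) :
    y⁻¹ * y' ∈ om Q ↔ y * y = y' * y' := by
  have c : Commute y y' := h.comm Q hQ y hy y' hy'
  have c1 : y⁻¹ * y' * (y⁻¹ * y') = (y * y)⁻¹ * (y' * y') := by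
    rw [mul_inv_rev, mul_assoc, mul_assoc, ← mul_assoc y', ← c.inv_left.eq, mul_assoc]
  rw [la.mem_om Q hQ, c1, inv_mul_eq_one]
  exact and_iff_right (mul_mem (inv_mem hy) hy')

theorem sq_mul (h : TB Ω) (hQ : Q ∈ Ω) {y' : G} (hy : y ∈ Q) (hy' : y' ∈ Q) :
    y * y' * (y * y') = y * y * (y' * y') := by
  rw [mul_assoc, ← mul_assoc y', h.comm Q hQ y' hy' y hy]; group

theorem lq : LQStmt.{u} := by
  intro G _ _ Ω h la le lb P Q e hq H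
  have e' := la.nsymm e
  by_contra h4
  push Not at h4
  obtain ⟨c1, c2⟩ := h.card e.l e.r
  have nm : ∀ {y}, y ∈ Q → (y ∉ om Q ↔ y * y ≠ 1) := fun hy => by
    rw [la.mem_om Q e.r, and_iff_right hy]
  have s2 : ∀ {y}, y ∈ Q → y * y * (y * y) = 1 := fun hy =>
    ((la.mem_om Q e.r _).1 (le.sq e' _ hy)).2
  have mul : ∀ {x1 x2 y1 y2}, x1 ∈ P → x1 ∉ om P → x2 ∈ P → x2 ∉ om P → y1 ∈ Q → y2 ∈ Q →
      y1 * y1 ≠ y2 * y2 → cj y1 P = cj x1 Q → cj y2 P = cj x2 Q →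
      x1 * x2 ∉ om P ∧ cj (y1 * y2) P = cj (x1 * x2) Q := by
    intro x1 x2 y1 y2 h1 n1 h2 n2 k1 k2 ne r1 r2
    have i1 := rel_iv h la le e h1 k1 r1
    have i2 := rel_iv h la le e h2 k2 r2
    have i3 := H x1 h1 n1 x2 h2 n2 _ (le.sq e' _ k1) _ (le.sq e' _ k2) i1 i2
    have n3 : x1 * x2 ∉ om P := fun a => ne <| by
      refine (le.ivE e x2 h2 n2).unique ⟨le.sq e' _ k1, ?_⟩ ⟨le.sq e' _ k2, i2⟩
      have a1 := le.adc e.toAd _ a _ (le.sq e' _ k1)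
      have a2 := ((la.mem_om P e.l _).1 a).2
      have a3 := h.comm P e.l x1 h1 x2 h2
      rw [Iv] at i1 ⊢
      generalize y1 * y1 = z at i1 a1 ⊢
      calc _ = (z * x1 * z⁻¹)⁻¹ * (z * (x1 * x2)) * z⁻¹ := by group
        _ = x1 * (x1 * x2) := by rw [i1, ← a1]; group
        _ = x1 * x2 * (x1 * x2) * x2⁻¹ := by rw [mul_assoc x1 x2, ← mul_assoc x2, ← a3]; group
        _ = _ := by rw [a2, one_mul]
    obtain ⟨y', hy', -, r⟩ := rel_ex h la le lb e' (by rw [← c1, ← c2, hq]) (mul_mem h1 h2) n3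
    have i4 := rel_iv h la le e (mul_mem h1 h2) hy' r.symm
    have e1 : y' * y' = y1 * y1 * (y2 * y2) := (le.ivE e _ (mul_mem h1 h2) n3).unique
      ⟨le.sq e' _ hy', i4⟩ ⟨mul_mem (le.sq e' _ k1) (le.sq e' _ k2), i3⟩
    rw [← sq_mul h e.r k1 k2, ← sq_eq h la e.r hy' (mul_mem k1 k2)] at e1
    refine ⟨n3, ?_⟩
    rw [r, show y1 * y2 = y' * (y'⁻¹ * (y1 * y2)) by group, H83.cj_mul,
      H83.cj_eq_self (le.vle e.toAd (mem_sup_right e1))]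
  have bil : ∀ {x1 x2 y1 y2 i}, x1 ∈ P → x1 ∉ om P → x2 ∈ P → x2 ∉ om P → y1 ∈ Q → y2 ∈ Q →
      y1 * y1 ≠ y2 * y2 → cj y1 P = cj x1 Q → cj y2 P = cj x2 Q → i ∈ om P →
      ⁅x1, ⁅y2, i⁆⁆ * ⁅x2, ⁅y1, i⁆⁆ = i := by
    intro x1 x2 y1 y2 i h1 n1 h2 n2 k1 k2 ne r1 r2 hi
    have a := rel_id h la le e (mul_mem h1 h2) (mul_mem k1 k2) (mul h1 n1 h2 n2 k1 k2 ne r1 r2).2 hi
    have b1 : ⁅y1, i⁆ ∈ vv P Q := mem_sup_right (le.brk e'.toAd _ k1 i (mem_sup_right hi))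
    have b2 : ⁅y2, i⁆ ∈ vv P Q := mem_sup_right (le.brk e'.toAd _ k2 i (mem_sup_right hi))
    rw [le.mul2 e'.toAd _ k1 _ k2 i (mem_sup_right hi), le.mul2 e.toAd _ h1 _ h2 _ (mul_mem b1 b2),
      le.mul1 e.toAd _ h1 _ b1 _ b2, le.mul1 e.toAd _ h2 _ b1 _ b2, rel_id h la le e h1 k1 r1 hi,
      rel_id h la le e h2 k2 r2 hi] at a
    have a2 := ((la.mem_om P e.l _).1 hi).2
    calc _ = i⁻¹ * (i * ⁅x1, ⁅y2, i⁆⁆ * (⁅x2, ⁅y1, i⁆⁆ * i)) * i⁻¹ := by group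
      _ = i⁻¹ := by rw [a]; group
      _ = i := inv_eq_of_mul_eq_one_right a2
  have hS : ∀ t : Set G, t.ncard ≤ 4 → ∃ y ∈ Q, y * y ∉ t := fun t ht => by
    obtain ⟨_, ⟨y, hy, rfl⟩, k⟩ := Set.exists_mem_notMem_of_ncard_lt_ncard
      (s := t) (t := {z | ∃ y ∈ Q, z = y * y}) (by rw [la.sqc Q e.r]; omega)
    exact ⟨y, hy, k⟩
  obtain ⟨y1, k1, n1⟩ := hS {1} (by simp)
  obtain ⟨y2, k2, n2⟩ := hS {1, y1 * y1} ((Set.ncard_insert_le _ _).trans (by simp))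
  obtain ⟨y, k, n⟩ := hS {1, y1 * y1, y2 * y2, y1 * y1 * (y2 * y2)} 
    ((Set.ncard_insert_le _ _).trans (Nat.succ_le_succ ((Set.ncard_insert_le _ _).trans
      (Nat.succ_le_succ ((Set.ncard_insert_le _ _).trans (by simp))))))
  simp only [Set.mem_insert_iff, Set.mem_singleton_iff, not_or] at n1 n2 n
  obtain ⟨x1, h1, m1, r1⟩ := rel_ex h la le lb e hq k1 ((nm k1).2 n1)
  obtain ⟨x2, h2, m2, r2⟩ := rel_ex h la le lb e hq k2 ((nm k2).2 n2.1)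
  obtain ⟨x, hx, m, r⟩ := rel_ex h la le lb e hq k ((nm k).2 n.1)
  obtain ⟨i, hi, i1⟩ := ex_om h e.l
  obtain ⟨m3, r3⟩ := mul h1 m1 h2 m2 k1 k2 (Ne.symm n2.2) r1 r2
  have a1 := bil h1 m1 hx m k1 k (Ne.symm n.2.1) r1 r hi
  have a2 := bil h2 m2 hx m k2 k (Ne.symm n.2.2.1) r2 r hi
  have a3 := bil (mul_mem h1 h2) m3 hx m (mul_mem k1 k2) k
    (by rw [sq_mul h e.r k1 k2]; exact Ne.symm n.2.2.2) r3 r hi
  have b : ∀ {y}, y ∈ Q → ⁅y, i⁆ ∈ vv P Q := fun k =>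
    mem_sup_right (le.brk e'.toAd _ k i (mem_sup_right hi))
  rw [le.mul2 e'.toAd _ k1 _ k2 i (mem_sup_right hi), le.mul2 e.toAd _ h1 _ h2 _ (b k),
    le.mul1 e.toAd _ hx _ (b k1) _ (b k2), mul_assoc, ← mul_assoc ⁅x2, _⁆,
    h.comm P e.l _ (om_le P (le.brk e.toAd _ h2 _ (b k))) _ (om_le P (le.brk e.toAd _ hx _ (b k1))),
    mul_assoc, ← mul_assoc, a1, a2] at a3
  exact i1 (mul_eq_left.1 a3)

end Cfsg.Agent.H72.TbLQ
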