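import Cfsg.Agent.H74.UVDefs
import Cfsg.Agent.H26.Num11
import Cfsg.Agent.H24.Deg
import Cfsg.Agent.H31.HermCount

/-! Project UV, piece DEC: the constituents of the components of the Weil character. -/

set_option autoImplicit false

namespace Cfsg.Agent.H72.UvDec

open Cfsg Module Cfsg.Agent.H31 Cfsg.Agent.H77.Sg Cfsg.Agent.H74.UV Cfsg.Agent.H11

universe u

theorem core {G : Type*} [Group G] [Fintype G] {π : G → ℂ} (hπ : IsCharacter G π) (P : G → Prop)
    {R t : ℕ} (ht : 683 ≤ t) (hR : 1 ≤ R) (h1 : π 1 = (R * t : ℕ)) (h0 : ∀ g, P g → g ≠ 1 → π g = 0)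
    (hp : ∃ g, P g ∧ g ≠ 1)
    (hc : ∀ χ, IsIrrCharacter G χ → classInner π χ ≠ 0 → ∃ (m : ℕ) (c : ℤ), |c| ≤ 3 ∧
      0 ≤ (m : ℤ) + c ∧ (charDegree χ : ℤ) = m * t + c ∧ ∀ g, P g → g ≠ 1 → χ g = c)
    (hn : ∀ m c : ℕ, 1 ≤ m → m ≤ R → c ≤ m → (c = 1 ∨ c = 2 ∨ c = 3) → m * t - c ∣ Nat.card G →
      m = R ∧ c = 1) :
    (∃ (μ : G →* ℂˣ) (χ : G → ℂ), IsIrrCharacter G χ ∧ charDegree χ ≠ 1 ∧
      (∀ g, π g = μ g + χ g) ∧ ∀ g, P g → μ g = 1) ∨
    ∀ χ, IsIrrCharacter G χ → classInner π χ ≠ 0 → ∃ a, 1 ≤ a ∧ a ≤ R ∧ charDegree χ = a * t := by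
  classical
  have hd : charDegree π = R * t := H24.deg_eq h1
  have hle : ∀ χ, IsIrrCharacter G χ → classInner π χ ≠ 0 → ∀ (m : ℕ) (c : ℤ), |c| ≤ 3 →
      (charDegree χ : ℤ) = m * t + c → m ≤ R := fun χ hχ h m c h2 h3 => by
    have h4 := H24.deg_le_of_inner_ne_zero hπ hχ h
    rw [hd] at h4
    by_contra h5
    have h6 : (R + 1) * t ≤ m * t := Nat.mul_le_mul_right _ (by omega)
    have h7 := (abs_le.1 h2).1
    have h8 : ((R + 1) * t : ℕ) = R * t + t := by ring
    rw [h8] at h6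
    zify at h4 h6 ht
    omega
  obtain ⟨p, hp1, hp2⟩ := hp
  by_cases hB : ∃ χ, IsIrrCharacter G χ ∧ classInner π χ ≠ 0 ∧ ∃ c : ℤ, c < 0 ∧ χ p = c
  · left
    obtain ⟨χ, hχ, h, c', hc1, hc2⟩ := hB
    obtain ⟨m, c, h2, hmc, h3, h4⟩ := hc χ hχ h
    obtain rfl : c = c' := by exact_mod_cast (h4 p hp1 hp2).symm.trans hc2
    have h5 := hle χ hχ h m c h2 h3
    have h6 : 1 ≤ m := by
      by_contra h7
      obtain rfl : m = 0 := by omega
      omega
    have h7 : t ≤ m * t := Nat.le_mul_of_pos_left _ h6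
    have h8 := (abs_le.1 h2).1
    have h9 : charDegree χ = m * t - (-c).toNat := by
      zify at h7
      rw [← Nat.cast_mul] at h3 h7
      omega
    obtain ⟨rfl, h10⟩ := hn m (-c).toNat h6 h5 (by omega) (by omega) (h9 ▸ H24.deg_dvd_card hχ)
    obtain rfl : c = -1 := by omega
    have h11 : (π - χ) 1 = 1 := by
      rw [Pi.sub_apply, h1, H24.irr_deg hχ]
      have : ((charDegree χ : ℤ) : ℂ) = ((m * t + -1 : ℤ) : ℂ) := by rw [h3]
      push_cast at this ⊢
      rw [this]; ring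
    obtain ⟨μ, hμ⟩ := exists_monoidHom_of_apply_one_eq_one (isCharacter_sub_irr hπ hχ h) h11
    refine ⟨μ, χ, hχ, by omega, fun g => ?_, fun g hg => ?_⟩
    · rw [← congrFun hμ g, Pi.sub_apply, sub_add_cancel]
    · by_cases h12 : g = 1
      · rw [h12, map_one]
      · apply Units.ext
        rw [← congrFun hμ g, Pi.sub_apply, h0 g hg h12, h4 g hg h12]
        norm_num
  · right
    push Not at hB
    haveI := Fintype.ofFinite (IrrCharacter G)
    obtain ⟨n, hn1, hn2⟩ := exists_eq_sum_nat hπ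
    have hv : ∀ ψ : IrrCharacter G, ∃ c : ℤ, 0 ≤ c ∧ (n ψ ≠ 0 → ψ.1 p = c) := fun ψ => by
      by_cases h : n ψ = 0
      · exact ⟨0, le_rfl, fun e => absurd h e⟩
      have h2 : classInner π ψ ≠ 0 := by rw [hn1]; exact_mod_cast h
      obtain ⟨m, c, -, -, -, h4⟩ := hc ψ.1 ψ.2 h2
      exact ⟨c, not_lt.1 fun e => hB ψ.1 ψ.2 h2 c e (h4 p hp1 hp2), fun _ => h4 p hp1 hp2⟩
    choose c hc1 hc2 using hv
    have hs : ∑ ψ, (n ψ : ℤ) * c ψ = 0 := by
      have h2 := h0 p hp1 hp2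
      rw [hn2, Finset.sum_apply] at h2
      have h3 : ((∑ ψ, (n ψ : ℤ) * c ψ : ℤ) : ℂ) = 0 := by
        rw [← h2]
        push_cast
        refine Finset.sum_congr rfl fun ψ _ => ?_
        by_cases h : n ψ = 0
        · simp [h]
        · rw [Pi.smul_apply, hc2 ψ h, smul_eq_mul]
      exact_mod_cast h3
    rw [Finset.sum_eq_zero_iff_of_nonneg fun ψ _ => mul_nonneg (Nat.cast_nonneg _) (hc1 ψ)] at hs
    intro χ hχ h
    obtain ⟨m, c', h2, -, h3, h4⟩ := hc χ hχ h
    have h5 : n ⟨χ, hχ⟩ ≠ 0 := fun e => h ((hn1 ⟨χ, hχ⟩).trans (by rw [e, Nat.cast_zero]))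
    have h6 := (mul_eq_zero.1 (hs ⟨χ, hχ⟩ (Finset.mem_univ _))).resolve_left (by exact_mod_cast h5)
    have h7 : c' = 0 := by
      have := (h4 p hp1 hp2).symm.trans (hc2 ⟨χ, hχ⟩ h5)
      rw [h6] at this
      exact_mod_cast this
    have h8 : charDegree χ = m * t := by
      rw [h7, add_zero] at h3
      exact_mod_cast h3
    refine ⟨m, ?_, hle χ hχ h m c' h2 h3, h8⟩
    have := H24.deg_pos hχ
    by_contra h9
    obtain rfl : m = 0 := by omega
    omega

theorem dec (hCon : ConStmt.{u}) : DecStmt.{u} := by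
  intro E K _ _ _ _ _ σ B q R t G _ hG hZ
  have hR : 1 ≤ R := by rcases hG.hR with h | h <;> omega
  have hzG : ∀ z ∈ Rt K (q + 1), mulH E K z ∈ G := fun z hz =>
    (hG.mem z).2 ⟨z, hz, 1, one_mem _, (mul_one z).symm⟩
  have hdvd : Nat.card G ∣ ordGU q 11 := by
    have := Subgroup.card_dvd_of_le hG.le
    rwa [hG.st.herm.card_isom hG.st.card hG.st.pow, hG.rk] at this
  have hze := hZ.chr G hG.le hzG
  have hπ : ∀ ν : Ch K q, IsCharacter G fun g => ze q ν g.1 + dl ν := fun ν => by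
    by_cases h : ν = 1
    · simp only [dl, if_pos h]
      exact isCharacter_add (hze ν) isCharacter_one
    · simpa only [dl, if_neg h, add_zero] using hze ν
  have key := fun ν : Ch K q => core (hπ ν) (fun g : G => g.1 ∈ Pt E K t) hG.t43 hR
    (by rw [OneMemClass.coe_one, hZ.deg, sub_add_cancel])
    (by
      rintro ⟨_, hg⟩ ⟨s, hs, rfl⟩ h1
      rw [hZ.val ν s (hG.PT hs) fun h => h1 (Subtype.ext (by
        change mulH E K s = 1
        rw [hG.ZP s h hs, map_one])), neg_add_cancel])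
    (by
      have : Nontrivial (Rt K t) := Finite.one_lt_card_iff_nontrivial.1 (by
        rw [hG.cardP]; have := hG.t43; omega)
      obtain ⟨s, hs⟩ := exists_ne (1 : Rt K t)
      exact ⟨⟨mulH E K s.1, (hG.mem _).2 ⟨1, one_mem _, s.1, s.2, (one_mul _).symm⟩⟩,
        ⟨s.1, s.2, rfl⟩, fun e => hs (Subtype.ext (mulH_injective
          ((congrArg Subtype.val e).trans (map_one _).symm)))⟩)
    (hCon E K σ B q R t G hG hZ ν)
    (fun m c h1 h2 hc h3 h4 => by
      have h5 := h4.trans hdvd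
      have h6 := hG.card
      by_contra h7
      rcases hG.hR with ⟨rfl, h⟩ | ⟨rfl, h⟩
      · omega
      · obtain ⟨p, f, hp, -, -, hf, e⟩ := hG.pp
        exact H26.N11.num11 q t m c ((isPrimePow_nat_iff q).2 ⟨p, f, hp, hf, e.symm⟩) h h6
          h1 h2 h3 h7 h5)
  refine ⟨?_, fun ν hν => ?_⟩
  · have h1 : classInner (fun g : G => ze q (1 : Ch K q) g.1 + dl (1 : Ch K q)) (fun _ => 1) ≠ 0 := by
      simp only [dl, if_pos]
      have := classInner_add_ne_zero isCharacter_one (hze 1) isCharacter_one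
        (by rw [classInner_one_one]; exact one_ne_zero)
      rwa [add_comm] at this
    rcases key 1 with ⟨μ, χ, h2, h3, h4, -⟩ | h
    · have h5 : (fun g : G => ze q (1 : Ch K q) g.1 + dl (1 : Ch K q)) =
          (fun g => (μ g : ℂ)) + χ := funext h4
      rw [h5, classInner_add_left, classInner_irr_of_ne h2 isIrrCharacter_one (fun e => h3 (by
        rw [e]; exact H24.deg_one)), add_zero] at h1
      have h6 := irr_eq_of_classInner_ne_zero (isIrrCharacter_monoidHom μ) isIrrCharacter_one h1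
      have h7 : (fun g : G => ze q (1 : Ch K q) g.1) = χ := funext fun g => by
        have h8 := h4 g
        rw [congrFun h6 g] at h8
        simp only [dl, if_pos] at h8
        linear_combination h8
      rw [h7]; exact h2
    · obtain ⟨a, h2, -, h3⟩ := h _ isIrrCharacter_one h1
      rw [H24.deg_one] at h3
      have := Nat.le_mul_of_pos_left t h2
      have := hG.t43
      omega
  · have h0 : dl ν = 0 := if_neg hν
    have := key ν
    simp only [h0, add_zero] at this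
    refine this.imp (fun ⟨μ, χ, h2, h3, h4, h5⟩ => ⟨μ, χ, h2, fun e => h3 ?_, h4, h5⟩) id
    rw [e]; exact H24.deg_monoidHom μ

end Cfsg.Agent.H72.UvDec
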