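import Cfsg.Agent.H74.UVDefs
import Cfsg.Agent.H31.HermSimple

/-! Project UV: a transitive group containing a homology contains the special unitary group. -/

set_option autoImplicit false

namespace Cfsg.Agent.H72.UvGenh

open Cfsg Module Cfsg.Agent.H31 Cfsg.Agent.H74.UV

universe u

theorem genh : GenhStmt.{u} := by
  intro E V _ _ _ _ _ σ B q G st rk le ⟨v, hv, g, hg, g1, gf⟩ tr
  have h := st.herm
  have v0 : v ≠ 0 := fun e => hv (by rw [e, map_zero])
  obtain ⟨a, ga⟩ : ∃ a : E, g v = a • v :=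
    ⟨_, h.apply_eq_det_smul hv (le hg) fun u hu => gf u (mem_perp_span_singleton.1 hu)⟩
  have dec : ∀ x, ∃ (c : E) (u : V), B v u = 0 ∧ x = c • v + u := fun x =>
    ⟨B v x / B v v, x - (B v x / B v v) • v, by
      rw [map_sub, smul_right, div_mul_cancel₀ _ hv, sub_self], (add_sub_cancel _ _).symm⟩
  have a1 : a ≠ 1 := fun e => g1 (LinearEquiv.ext fun x => by
    obtain ⟨c, u, hu, rfl⟩ := dec x
    rw [map_add, map_smul, ga, e, one_smul, gf u hu]
    rfl)
  have cj : ∀ s ∈ isom B, s * g * s⁻¹ ∈ G := fun s hs => by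
    obtain ⟨k, hk, e⟩ := tr v (s v) (hs v v).symm hv
    have mi : k⁻¹ * s ∈ isom B := mul_mem (inv_mem (le hk)) hs
    have mv : (k⁻¹ * s) v = v := k.symm_apply_eq.2 e.symm
    have c : k⁻¹ * s * g = g * (k⁻¹ * s) := LinearEquiv.ext fun x => by
      obtain ⟨c, u, hu, rfl⟩ := dec x
      have : B v ((k⁻¹ * s) u) = 0 := by rw [← hu, ← mi v u, mv]
      rw [LinearEquiv.mul_apply _ g, LinearEquiv.mul_apply g, map_add, map_smul, ga, gf u hu,
        map_add, map_smul, map_smul, mv, map_add, map_smul, mv, map_add, map_smul, ga, gf _ this]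
    have : s * g * s⁻¹ = k * g * k⁻¹ := by
      calc _ = k * (k⁻¹ * s * g) * s⁻¹ := by group
        _ = _ := by rw [c]; group
    rw [this]
    exact mul_mem (mul_mem hk hg) (inv_mem hk)
  have big : ∀ s : Finset V, s.card ≤ 2 → perp B (Submodule.span E (s : Set V)) ≠ ⊥ :=
    fun s hs e => by
      have a := h.finrank_add_finrank_perp (Submodule.span E (s : Set V))
      have b : finrank E (Submodule.span E (s : Set V)) ≤ s.card := finrank_span_finset_le_card s
      rw [e, finrank_bot] at a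
      omega
  classical
  obtain ⟨w, hw, ww⟩ := h.exists_norm_eq (h.nondegOn_perp (nondegOn_span_singleton hv))
    (by simpa using big {v} (by simp)) (h.norm_fixed v)
  obtain ⟨k, hk, kv⟩ := tr v w ww.symm hv
  obtain ⟨u, hu, u0⟩ := Submodule.exists_mem_ne_zero_of_ne_bot (big {v, w} Finset.card_le_two)
  rw [mem_perp_span] at hu
  have fx : ∀ x, B w x = 0 → (k * g * k⁻¹)⁻¹ x = x := fun x hx => by
    refine (k * g * k⁻¹).symm_apply_eq.2 ?_
    have e : k (k⁻¹ x) = x := k.apply_symm_apply x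
    rw [LinearEquiv.mul_apply, LinearEquiv.mul_apply, gf _ (by rw [← le hk, kv, e, hx]), e]
  have hr : g * (k * g * k⁻¹)⁻¹ ∈ sisom B :=
    mem_sisom.2 ⟨le (mul_mem hg (inv_mem (mul_mem (mul_mem hk hg) (inv_mem hk)))), by
      rw [map_mul, map_inv, map_mul, map_mul, map_inv, mul_inv_cancel_comm, mul_inv_cancel]⟩
  rcases h.normal_le_center_or_eq_top (.inl (by omega)) (G.subgroupOf (sisom B)).normalCore
    inferInstance with h1 | h1
  · obtain ⟨c, hc⟩ := (h.mem_center_sisom_iff (by omega)).1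
      (h1 (show (⟨_, hr⟩ : sisom B) ∈ _ from fun s => by
        change s.1 * (g * (k * g * k⁻¹)⁻¹) * s.1⁻¹ ∈ G
        have e : s.1 * (g * (k * g * k⁻¹)⁻¹) * s.1⁻¹ =
            s.1 * g * s.1⁻¹ * (s.1 * k * g * (s.1 * k)⁻¹)⁻¹ := by group
        rw [e]
        exact mul_mem (cj _ s.2.1) (inv_mem (cj _ (mul_mem s.2.1 (le hk))))))
    have e1 := hc v
    have e2 := hc u
    rw [LinearEquiv.mul_apply, fx v (h.flip_zero (mem_perp_span_singleton.1 hw)), ga] at e1
    rw [LinearEquiv.mul_apply, fx u (hu w (by simp)), gf u (hu v (by simp))] at e2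
    exact absurd ((smul_left_injective E v0 e1).trans
      (smul_left_injective E u0 ((one_smul E u).trans e2)).symm) a1
  · exact fun x hx => Subgroup.normalCore_le (G.subgroupOf (sisom B))
      (h1 ▸ Subgroup.mem_top (⟨x, hx⟩ : sisom B))

end Cfsg.Agent.H72.UvGenh
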